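import Mathlib
import Cfsg.Agent.H922.TenForms

/-!
Tensor decompositions `V = A ⊗ B`, `dim A = dim B = 3`, `q ≥ 7`: a proper overgroup of the
stabiliser preserves the decomposition.
-/

set_option autoImplicit false
set_option linter.unusedSectionVars false

namespace Cfsg.Agent.H922.Ten

open QuadraticMap Cfsg.Agent.LieClassical.OrthCore Cfsg.Agent.LieClassical.OrthTrans
  Cfsg.Agent.LieClassical.OrthSimple Cfsg.Agent.ClassicalGeometry.OrthAutBasic
  Cfsg.Agent.H887.SiegelMethod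

variable {F V A B : Type*} [Field F] [AddCommGroup V] [Module F V] [AddCommGroup A] [Module F A]
  [AddCommGroup B] [Module F B] {Q : QuadraticForm F V} {QA : QuadraticForm F A}
  {QB : QuadraticForm F B} {ten : A →ₗ[F] B →ₗ[F] V}

variable {a1 a2 a3 : A} {b1 b2 b3 : B}

/-- An element of a proper overgroup mapping `A ⊗ b1` to pure tensors preserves the
decomposition. -/
theorem DS_of_pure [Finite F] [FiniteDimensional F A] [FiniteDimensional F B] (hF : 5 ≤ Nat.card F)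
    (h : TD Q QA QB ten) {L : Subgroup (V ≃ₗ[F] V)}
    (hL : Ov Q ten L) (hG : Good Q) (hne : ¬ E Q ≤ L) (ha : HB QA a1 a2 a3)
    (hdA : Module.finrank F A = 3) (hdB : Module.finrank F B = 3) (hb : HB QB b1 b2 b3)
    {s0 : V ≃ₗ[F] V} (hs0 : s0 ∈ L) (hsw : Sw ten s0) {g : V ≃ₗ[F] V}
    (hg : g ∈ L) (hp : ∀ x, ∃ a b, g (ten x b1) = ten a b) : DS ten g := by
  have ha20 : a2 ≠ 0 := by
    intro h0
    apply ha.q2
    rw [h0]
    exact QuadraticMap.map_zero QA
  have hne0 : g (ten a2 b1) ≠ 0 := by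
    intro h0
    have h1 : ten a2 b1 = 0 := (LinearEquiv.map_eq_zero_iff g).1 h0
    have h2 : ten a2 b1 = ten 0 b1 := by rw [h1, map_zero, LinearMap.zero_apply]
    exact ha20 (h.ten_inj hb.hyp.left_ne h2)
  have hginj : ∀ x y, g (ten x b1) = g (ten y b1) → x = y := fun x y hxy =>
    h.ten_inj hb.hyp.left_ne (g.injective hxy)
  rcases h.pure_space (f := g.toLinearMap ∘ₗ ten.flip b1) hp with ⟨b', hb'⟩ | ⟨a', ha'⟩
  · -- `g (A ⊗ b1) = A ⊗ b'`
    have hb'0 : b' ≠ 0 := by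
      rintro rfl
      obtain ⟨a, ha⟩ := hb' a2
      apply hne0
      have : g (ten a2 b1) = ten a 0 := ha
      rw [this, map_zero]
    obtain ⟨b'', hb''⟩ := h.nB.exists_polar_eq hb'0 1
    let f1 : A →ₗ[F] A := h.pb b'' ∘ₗ g.toLinearMap ∘ₗ ten.flip b1
    have hf1 : ∀ x, g (ten x b1) = ten (f1 x) b' := by
      intro x
      obtain ⟨y, hy⟩ := hb' x
      have hy' : g (ten x b1) = ten y b' := hy
      have : f1 x = h.pb b'' (g (ten x b1)) := rfl
      rw [this, hy', h.pb_ten, polar_comm, hb'', one_smul]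
    have hinj : Function.Injective f1 := by
      intro x y hxy
      apply hginj
      rw [hf1, hf1, hxy]
    have hsurj : Function.Surjective f1 := LinearMap.injective_iff_surjective.1 hinj
    have hdec : Dec ten g⁻¹ := by
      refine dec_of_map hF h hL hG hne ha hdA hb (L.inv_mem hg) hb'0 fun x => ?_
      obtain ⟨y, rfl⟩ := hsurj x
      refine ⟨y, ?_⟩
      rw [← hf1]
      exact LinearEquiv.symm_apply_apply g _
    left
    have := hdec.inv
    rwa [inv_inv] at this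
  · -- `g (A ⊗ b1) = a' ⊗ B`
    have ha'0 : a' ≠ 0 := by
      rintro rfl
      obtain ⟨b, hb⟩ := ha' a2
      apply hne0
      have : g (ten a2 b1) = ten 0 b := hb
      rw [this, map_zero, LinearMap.zero_apply]
    obtain ⟨a'', ha''⟩ := h.nA.exists_polar_eq ha'0 1
    let f1 : A →ₗ[F] B := h.flip.pb a'' ∘ₗ g.toLinearMap ∘ₗ ten.flip b1
    have hf1 : ∀ x, g (ten x b1) = ten a' (f1 x) := by
      intro x
      obtain ⟨y, hy⟩ := ha' x
      have hy' : g (ten x b1) = ten a' y := hy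
      have : f1 x = h.flip.pb a'' (g (ten x b1)) := rfl
      rw [this, hy']
      have e : h.flip.pb a'' (ten a' y) = polar QA a'' a' • y := h.flip.pb_ten a'' y a'
      rw [e, polar_comm, ha'', one_smul]
    have hinj : Function.Injective f1 := by
      intro x y hxy
      apply hginj
      rw [hf1, hf1, hxy]
    have hsurj : Function.Surjective f1 :=
      (LinearMap.injective_iff_surjective_of_finrank_eq_finrank (by rw [hdA, hdB])).1 hinj
    have hsw' : Sw ten g⁻¹ := by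
      refine sw_of_map hF h hL hG hne ha hdA hb hs0 hsw (L.inv_mem hg) ha'0 fun x => ?_
      obtain ⟨y, rfl⟩ := hsurj x
      refine ⟨y, ?_⟩
      rw [← hf1]
      exact LinearEquiv.symm_apply_apply g _
    right
    have := hsw'.inv
    rwa [inv_inv] at this

/-- The elements of `L` preserving the decomposition. -/
def HS (ten : A →ₗ[F] B →ₗ[F] V) (L : Subgroup (V ≃ₗ[F] V)) : Subgroup L where
  carrier := {g | DS ten (g : V ≃ₗ[F] V)}
  mul_mem' := fun hg hg' => DS.mul hg hg'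
  one_mem' := Or.inl dec_one
  inv_mem' := fun hg => DS.inv hg

/-- The one-parameter group `1 ⊗ T b1 (t b2)`. -/
noncomputable def TD.jB (h : TD Q QA QB ten) {L : Subgroup (V ≃ₗ[F] V)} (hL : Ov Q ten L)
    (hG : Good Q) (hb : HB QB b1 b2 b3) : Multiplicative F →* L where
  toFun t := ⟨h.tm 1 (T QB b1 (t.toAdd • b2)), hL.tB h hG _ _⟩
  map_one' := by
    apply Subtype.ext
    show h.tm 1 (T QB b1 ((0 : F) • b2)) = 1
    rw [zero_smul, T_zero_right, h.tm_one]
  map_mul' t t' := by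
    apply Subtype.ext
    show h.tm 1 (T QB b1 ((t.toAdd + t'.toAdd) • b2)) =
      h.tm 1 (T QB b1 (t.toAdd • b2)) * h.tm 1 (T QB b1 (t'.toAdd • b2))
    rw [← h.tm_mul, one_mul, T_mul hb.hyp.left (by rw [polar_smul_right, hb.p12, smul_zero])
      (by rw [polar_smul_right, hb.p12, smul_zero]), add_smul]

theorem TD.jB_coe (h : TD Q QA QB ten) {L : Subgroup (V ≃ₗ[F] V)} (hL : Ov Q ten L)
    (hG : Good Q) (hb : HB QB b1 b2 b3) (t : Multiplicative F) :
    ((h.jB hL hG hb t : L) : V ≃ₗ[F] V) = h.tm 1 (T QB b1 (t.toAdd • b2)) := rfl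

theorem TD.jB_inv (h : TD Q QA QB ten) {L : Subgroup (V ≃ₗ[F] V)} (hL : Ov Q ten L)
    (hG : Good Q) (hb : HB QB b1 b2 b3) (t : Multiplicative F) (v : V) :
    (((h.jB hL hG hb t : L) : V ≃ₗ[F] V)⁻¹ : V ≃ₗ[F] V) v =
      v + (-t.toAdd) • h.mB (nu QB b1 b2) v + (-t.toAdd) ^ 2 • h.mB (nu2 QB b1 b2) v := by
  have h1 : ((h.jB hL hG hb t : L) : V ≃ₗ[F] V)⁻¹ = ((h.jB hL hG hb t⁻¹ : L) : V ≃ₗ[F] V) := by
    rw [map_inv]
    rfl
  rw [h1, h.jB_coe, toAdd_inv, h.tmB_poly hb]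

theorem sum_poly [Fintype F] (hF : 7 ≤ Fintype.card F) (c0 c1 c2 c3 c4 : F) :
    ∑ t : F, (c0 + c1 * t + c2 * t ^ 2 + c3 * t ^ 3 + c4 * t ^ 4) = 0 := by
  have hs : ∀ i, i ≤ 4 → ∑ t : F, t ^ i = 0 := fun i hi =>
    FiniteField.sum_pow_lt_card_sub_one F i (by omega)
  have h1 : ∑ t : F, t = 0 := by
    have := hs 1 (by omega)
    simpa using this
  have h6 : ∑ t : F, c1 * t = c1 * ∑ t : F, t := (Finset.mul_sum _ _ _).symm
  simp only [Finset.sum_add_distrib, h6, ← Finset.mul_sum, hs 2 (by omega), hs 3 (by omega),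
    hs 4 (by omega), h1]
  have h0 := hs 0 (by omega)
  simp only [pow_zero] at h0
  have h5 : ∑ _t : F, c0 = c0 * ∑ _t : F, 1 := by rw [Finset.mul_sum]; simp
  rw [h5, h0]
  ring

section main

variable [Finite F] [FiniteDimensional F A] [FiniteDimensional F B]

theorem tr_eq_of_fix (hF : 7 ≤ Nat.card F) (h : TD Q QA QB ten) {L : Subgroup (V ≃ₗ[F] V)}
    [Finite L] (hL : Ov Q ten L) (hG : Good Q) (hne : ¬ E Q ≤ L) (ha : HB QA a1 a2 a3)
    (hdA : Module.finrank F A = 3) (hdB : Module.finrank F B = 3) (hb : HB QB b1 b2 b3)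
    {s0 : V ≃ₗ[F] V} (hs0 : s0 ∈ L) (hsw : Sw ten s0) {M : V →ₗ[F] V →ₗ[F] F}
    (hM : ∀ t, ((rho F V).comp L.subtype) (h.jB hL hG hb t) M = M) :
    Trace.tr ((rho F V).comp L.subtype) (HS ten L) h.pj M = h.pj M := by
  have hFt : Fintype F := Fintype.ofFinite F
  have : Fintype (Multiplicative F) := Fintype.ofFinite _
  rw [Nat.card_eq_fintype_card] at hF
  have hF5 : 5 ≤ Nat.card F := by rw [Nat.card_eq_fintype_card]; omega
  obtain ⟨Y, hY⟩ := Trace.tr_apply (F := F) (X := V →ₗ[F] V →ₗ[F] F)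
    (ρ := (rho F V).comp L.subtype) (H := HS ten L) (π := h.pj)
    (fun g hg => h.pj_comm hg) (h.jB hL hG hb)
    (fun d => Or.inl (h.dec_tm _ _))
    (fun d hd g hgd => by
      refine fusion hF5 h hL hG hne ha hdA hdB hb hs0 hsw (c := d.toAdd)
        (fun h0 => hd (by rw [← ofAdd_toAdd d, h0]; rfl)) g.2
        (g⁻¹ * h.jB hL hG hb d * g).2 ?_ hgd
      rw [← h.jB_coe hL hG hb, ← Subgroup.coe_mul, ← Subgroup.coe_mul]
      congr 1
      group) hM
  rw [hY]
  have hsum : ∑ d, ((rho F V).comp L.subtype) (h.jB hL hG hb d) Y = 0 := by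
    ext v w
    rw [LinearMap.sum_apply, LinearMap.sum_apply, LinearMap.zero_apply, LinearMap.zero_apply]
    have e : ∀ d : Multiplicative F, ((rho F V).comp L.subtype) (h.jB hL hG hb d) Y v w =
        (Y v w + (-(Y (h.mB (nu QB b1 b2) v) w) - Y v (h.mB (nu QB b1 b2) w)) * d.toAdd +
        (Y (h.mB (nu2 QB b1 b2) v) w + Y v (h.mB (nu2 QB b1 b2) w) +
          Y (h.mB (nu QB b1 b2) v) (h.mB (nu QB b1 b2) w)) * d.toAdd ^ 2 +
        (-(Y (h.mB (nu2 QB b1 b2) v) (h.mB (nu QB b1 b2) w)) -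
          Y (h.mB (nu QB b1 b2) v) (h.mB (nu2 QB b1 b2) w)) * d.toAdd ^ 3 +
        Y (h.mB (nu2 QB b1 b2) v) (h.mB (nu2 QB b1 b2) w) * d.toAdd ^ 4) := by
      intro d
      have e1 : ((rho F V).comp L.subtype) (h.jB hL hG hb d) Y v w =
        Y ((((h.jB hL hG hb d : L) : V ≃ₗ[F] V)⁻¹ : V ≃ₗ[F] V) v)
          ((((h.jB hL hG hb d : L) : V ≃ₗ[F] V)⁻¹ : V ≃ₗ[F] V) w) := rfl
      rw [e1, h.jB_inv, h.jB_inv]
      simp only [map_add, map_smul, LinearMap.add_apply, LinearMap.smul_apply, smul_eq_mul]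
      ring
    rw [Finset.sum_congr rfl fun d _ => e d]
    have e2 := sum_poly hF (Y v w) (-(Y (h.mB (nu QB b1 b2) v) w) - Y v (h.mB (nu QB b1 b2) w))
        (Y (h.mB (nu2 QB b1 b2) v) w + Y v (h.mB (nu2 QB b1 b2) w) +
          Y (h.mB (nu QB b1 b2) v) (h.mB (nu QB b1 b2) w))
        (-(Y (h.mB (nu2 QB b1 b2) v) (h.mB (nu QB b1 b2) w)) -
          Y (h.mB (nu QB b1 b2) v) (h.mB (nu2 QB b1 b2) w))
        (Y (h.mB (nu2 QB b1 b2) v) (h.mB (nu2 QB b1 b2) w))
    rw [← e2]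
    exact Fintype.sum_equiv Multiplicative.toAdd _ _ fun d => rfl
  rw [hsum, add_zero]

theorem TD.rho_mko (h : TD Q QA QB ten) (η : A →ₗ[F] A →ₗ[F] F) {β : B ≃ₗ[F] B} (hβ : β ∈ O QB)
    (x y : B) : rho F V (h.tm 1 β) (h.mko η (om QB x y)) = h.mko η (om QB (β x) (β y)) := by
  refine h.ext₂ fun a b a' b' => ?_
  have e : ∀ (a : A) (b : B), ((h.tm 1 β)⁻¹ : V ≃ₗ[F] V) (ten a b) = ten a ((β⁻¹ : B ≃ₗ[F] B) b) := by
    intro a b
    rw [h.tm_inv, h.tm_ten]
    rfl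
  have e2 : ∀ x b, polar QB x ((β⁻¹ : B ≃ₗ[F] B) b) = polar QB (β x) b := by
    intro x b
    have : β ((β⁻¹ : B ≃ₗ[F] B) b) = b := LinearEquiv.apply_symm_apply β b
    conv_rhs => rw [← this]
    rw [polar_map hβ]
  rw [rho_apply, e, e, h.mko_ten, h.mko_ten, om_apply, om_apply, e2, e2, e2, e2]

theorem TD.mko_fixed (h : TD Q QA QB ten) {L : Subgroup (V ≃ₗ[F] V)} (hL : Ov Q ten L)
    (hG : Good Q) (hb : HB QB b1 b2 b3) (η : A →ₗ[F] A →ₗ[F] F) (t : Multiplicative F) :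
    ((rho F V).comp L.subtype) (h.jB hL hG hb t) (h.mko η (om QB b1 b2)) =
      h.mko η (om QB b1 b2) := by
  have e : ((rho F V).comp L.subtype) (h.jB hL hG hb t) = rho F V (h.tm 1 (T QB b1 (t.toAdd • b2))) :=
    rfl
  rw [e, h.rho_mko η (T_mem_O _ _), T_HB_one hb, T_HB_two hb]
  refine h.ext₂ fun a b a' b' => ?_
  rw [h.mko_ten, h.mko_ten, om_apply, om_apply]
  simp only [polar_sub_left, polar_smul_left, smul_eq_mul]
  ring

/-- Decomposition of the forms alternating in both slots. -/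
theorem TD.fix_decomp (h : TD Q QA QB ten) (hb : HB QB b1 b2 b3) {M : V →ₗ[F] V →ₗ[F] F}
    (hM : h.pj M = M) :
    M = (-(2 * QB b2)⁻¹) • h.mko (M.compl₁₂ (ten.flip b2) (ten.flip b3)) (om QB b1 b2) +
      ((2 * QB b2)⁻¹) • h.mko (M.compl₁₂ (ten.flip b1) (ten.flip b2)) (om QB b3 b2) +
      (((2 * QB b2)⁻¹) • h.mko (M.compl₁₂ (ten.flip b1) (ten.flip b3)) (om QB b3 b2) +
      ((2 * QB b2)⁻¹ * (2 * QB b2 - QB b2)) •
        h.mko (M.compl₁₂ (ten.flip b1) (ten.flip b3)) (om QB b1 b2) +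
      (-(2 * QB b2)⁻¹) • h.mko (M.compl₁₂ (ten.flip b1) (ten.flip b3))
        (om QB (T QB b1 ((1 : F) • b2) b3) (T QB b1 ((1 : F) • b2) b2))) := by
  have hδ : (2 * QB b2) ≠ 0 := mul_ne_zero h.two hb.q2
  have hδ1 : (2 * QB b2)⁻¹ * (2 * QB b2) = 1 := inv_mul_cancel₀ hδ
  obtain ⟨h1, h2⟩ := (h.fix_iff M).1 hM
  refine h.ext₂ fun a y a' y' => ?_
  simp only [LinearMap.add_apply, LinearMap.smul_apply, smul_eq_mul]
  rw [h.mko_ten, h.mko_ten, h.mko_ten, h.mko_ten, h.mko_ten]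
  simp only [LinearMap.compl₁₂_apply, LinearMap.flip_apply, om_apply, T_HB_two hb, T_HB_three hb,
    polar_sub_left, polar_add_left, polar_smul_left, smul_eq_mul]
  -- expand the left side
  have e11 : M (ten a b1) (ten a' b1) = 0 := by
    have := h2 a b1 a' b1
    have h3 : 2 * M (ten a b1) (ten a' b1) = 0 := by linear_combination this
    exact (mul_eq_zero.1 h3).resolve_left h.two
  have e22 : M (ten a b2) (ten a' b2) = 0 := by
    have := h2 a b2 a' b2
    have h3 : 2 * M (ten a b2) (ten a' b2) = 0 := by linear_combination this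
    exact (mul_eq_zero.1 h3).resolve_left h.two
  have e33 : M (ten a b3) (ten a' b3) = 0 := by
    have := h2 a b3 a' b3
    have h3 : 2 * M (ten a b3) (ten a' b3) = 0 := by linear_combination this
    exact (mul_eq_zero.1 h3).resolve_left h.two
  have e21 : M (ten a b2) (ten a' b1) = - M (ten a b1) (ten a' b2) := h2 a b1 a' b2
  have e31 : M (ten a b3) (ten a' b1) = - M (ten a b1) (ten a' b3) := h2 a b1 a' b3
  have e32 : M (ten a b3) (ten a' b2) = - M (ten a b2) (ten a' b3) := h2 a b2 a' b3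
  have e : M (ten a y) (ten a' y') =
      (polar QB b3 y * ((2 * QB b2)⁻¹ * polar QB b2 y') -
        ((2 * QB b2)⁻¹ * polar QB b2 y) * polar QB b3 y') * M (ten a b1) (ten a' b2) +
      (polar QB b3 y * polar QB b1 y' - polar QB b1 y * polar QB b3 y') *
        M (ten a b1) (ten a' b3) +
      (((2 * QB b2)⁻¹ * polar QB b2 y) * polar QB b1 y' -
        polar QB b1 y * ((2 * QB b2)⁻¹ * polar QB b2 y')) * M (ten a b2) (ten a' b3) := by
    conv_lhs => rw [hb.span y, hb.span y']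
    simp only [map_add, map_smul, LinearMap.add_apply, LinearMap.smul_apply, smul_eq_mul]
    rw [e11, e22, e33, e21, e31, e32]
    ring
  rw [e]
  linear_combination (-(polar QB b3 y * polar QB b1 y' - polar QB b1 y * polar QB b3 y') *
        M (ten a b1) (ten a' b3)) * hδ1

theorem tr_eq_id (hF : 7 ≤ Nat.card F) (h : TD Q QA QB ten) {L : Subgroup (V ≃ₗ[F] V)}
    [Finite L] (hL : Ov Q ten L) (hG : Good Q) (hne : ¬ E Q ≤ L) (ha : HB QA a1 a2 a3)
    (hdA : Module.finrank F A = 3) (hdB : Module.finrank F B = 3) (hb : HB QB b1 b2 b3)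
    {s0 : V ≃ₗ[F] V} (hs0 : s0 ∈ L) (hsw : Sw ten s0) {M : V →ₗ[F] V →ₗ[F] F}
    (hM : h.pj M = M) :
    Trace.tr ((rho F V).comp L.subtype) (HS ten L) h.pj M = M := by
  obtain ⟨h1, h2⟩ := (h.fix_iff M).1 hM
  have hη : ∀ c c' : B, ∀ a x, (M.compl₁₂ (ten.flip c) (ten.flip c')) x a =
      - (M.compl₁₂ (ten.flip c) (ten.flip c')) a x := fun c c' a x => h1 a c x c'
  have key : ∀ {c1 c2 c3 : B}, HB QB c1 c2 c3 → ∀ c c' : B,
      Trace.tr ((rho F V).comp L.subtype) (HS ten L) h.pj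
        (h.mko (M.compl₁₂ (ten.flip c) (ten.flip c')) (om QB c1 c2)) =
      h.mko (M.compl₁₂ (ten.flip c) (ten.flip c')) (om QB c1 c2) := by
    intro c1 c2 c3 hc c c'
    rw [tr_eq_of_fix hF h hL hG hne ha hdA hdB hc hs0 hsw
      (fun t => h.mko_fixed hL hG hc _ t), h.mko_fix (hη c c') (om_skew c1 c2)]
  have hbu := hb.symm.map (g := T QB b1 ((1 : F) • b2)) (T_mem_O _ _)
  conv_lhs => rw [h.fix_decomp hb hM]
  simp only [map_add, map_smul]
  rw [key hb, key hb.symm, key hb.symm, key hb, key hbu]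
  exact (h.fix_decomp hb hM).symm

/-- **q ≥ 7.** -/
theorem DS_of_seven (hF : 7 ≤ Nat.card F) (h : TD Q QA QB ten) {L : Subgroup (V ≃ₗ[F] V)}
    (hL : Ov Q ten L) (hG : Good Q) (hne : ¬ E Q ≤ L) (ha : HB QA a1 a2 a3)
    (hdA : Module.finrank F A = 3) (hdB : Module.finrank F B = 3) (hb : HB QB b1 b2 b3)
    {s0 : V ≃ₗ[F] V} (hs0 : s0 ∈ L) (hsw : Sw ten s0) {g : V ≃ₗ[F] V} (hg : g ∈ L) :
    DS ten g := by
  have : FiniteDimensional F V := Module.finite_of_finrank_pos (by have := hG.dim; omega)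
  have : Finite V := Module.finite_of_finite F
  have : Finite (V ≃ₗ[F] V) := DFunLike.finite _
  have : Finite (V →ₗ[F] V →ₗ[F] F) := Module.finite_of_finite F
  obtain ⟨p, hp⟩ := CharP.exists F
  have hpp : p.Prime := CharP.char_is_prime F p
  have : Fact p.Prime := ⟨hpp⟩
  have hpg : IsPGroup p (Multiplicative F) := by
    intro t
    refine ⟨1, ?_⟩
    apply Multiplicative.toAdd.injective
    rw [pow_one, toAdd_pow, ← Nat.cast_smul_eq_nsmul F, CharP.cast_eq_zero, zero_smul]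
    rfl
  refine DS_of_pure (by omega) h hL hG hne ha hdA hdB hb hs0 hsw hg fun x => ?_
  refine h.pure_of_forms hb fun M hM => ?_
  have h1 := Trace.green (F := F) (X := V →ₗ[F] V →ₗ[F] F)
    (ρ := (rho F V).comp L.subtype) (H := HS ten L) (π := h.pj)
    (fun g hg => h.pj_comm hg) hpg (h.jB hL hG hb) (fun d => Or.inl (h.dec_tm _ _))
    (fun M => ∀ t, ((rho F V).comp L.subtype) (h.jB hL hG hb t) M = M) (fun M hM => hM) ⊤
    (fun _ _ _ => Submodule.mem_top) (fun _ _ => Submodule.mem_top) (fun M _ => h.pj_pj M)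
    (fun M _ hM => tr_eq_of_fix hF h hL hG hne ha hdA hdB hb hs0 hsw hM)
    (fun M _ hM => tr_eq_id hF h hL hG hne ha hdA hdB hb hs0 hsw hM)
    (⟨g, hg⟩⁻¹ : L) Submodule.mem_top hM
  obtain ⟨h2, -⟩ := (h.fix_iff _).1 h1
  have h3 := h2 x b1 x b1
  have h4 : ((rho F V).comp L.subtype) (⟨g, hg⟩⁻¹ : L) M (ten x b1) (ten x b1) =
      M (g (ten x b1)) (g (ten x b1)) := rfl
  rw [h4] at h3
  have h5 : 2 * M (g (ten x b1)) (g (ten x b1)) = 0 := by linear_combination h3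
  exact (mul_eq_zero.1 h5).resolve_left h.two

end main

end Cfsg.Agent.H922.Ten
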