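import Mathlib
import Cfsg.Agent.H922.TenSeven

/-!
Tensor decompositions `V = A ⊗ B`, `dim A = dim B = 3`, `q = 5`: contractions of bilinear forms and
the projection of the alternating forms onto `so(A) ⊕ so(B)`.
-/

set_option autoImplicit false
set_option linter.unusedSectionVars false

namespace Cfsg.Agent.H922.Ten

open QuadraticMap Cfsg.Agent.LieClassical.OrthCore Cfsg.Agent.LieClassical.OrthTrans
  Cfsg.Agent.LieClassical.OrthSimple Cfsg.Agent.ClassicalGeometry.OrthAutBasic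
  Cfsg.Agent.H887.SiegelMethod

variable {F V A B : Type*} [Field F] [AddCommGroup V] [Module F V] [AddCommGroup A] [Module F A]
  [AddCommGroup B] [Module F B] {Q : QuadraticForm F V} {QA : QuadraticForm F A}
  {QB : QuadraticForm F B} {ten : A →ₗ[F] B →ₗ[F] V}

variable {a1 a2 a3 : A} {b1 b2 b3 : B}

/-- The contraction of a bilinear form, computed in a hyperbolic basis. -/
def ctr (QB : QuadraticForm F B) (b1 b2 b3 : B) (m : B →ₗ[F] B →ₗ[F] F) : F :=
  m b1 b3 + (2 * QB b2)⁻¹ * m b2 b2 + m b3 b1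

theorem ctr_eq [FiniteDimensional F B] (hB : Nondeg QB) (hb : HB QB b1 b2 b3) {c1 c2 c3 : B}
    (hc : HB QB c1 c2 c3) (m : B →ₗ[F] B →ₗ[F] F) : ctr QB b1 b2 b3 m = ctr QB c1 c2 c3 m := by
  let Tt : B → B → B → B →ₗ[F] B := fun b1 b2 b3 =>
    (m.flip b3).smulRight b1 + ((2 * QB b2)⁻¹ • m.flip b2).smulRight b2 + (m.flip b1).smulRight b3
  have htr : ∀ b1 b2 b3 : B, LinearMap.trace F B (Tt b1 b2 b3) = ctr QB b1 b2 b3 m := by
    intro b1 b2 b3
    simp only [Tt, map_add, LinearMap.trace_smulRight, ctr, LinearMap.flip_apply,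
      LinearMap.smul_apply, smul_eq_mul]
  have hT : ∀ {b1 b2 b3 : B}, HB QB b1 b2 b3 → ∀ y y', polar QB (Tt b1 b2 b3 y) y' = m y y' := by
    intro b1 b2 b3 hb y y'
    conv_rhs => rw [hb.span y']
    simp only [Tt, LinearMap.add_apply, LinearMap.smulRight_apply, LinearMap.flip_apply,
      LinearMap.smul_apply, polar_add_left, polar_smul_left, map_add, map_smul, smul_eq_mul]
    ring
  have e : Tt b1 b2 b3 = Tt c1 c2 c3 := by
    ext y
    rw [← sub_eq_zero]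
    apply hB
    intro y'
    rw [polar_sub_left, hT hb, hT hc, sub_self]
  rw [← htr, ← htr, e]

/-- Contractions and similarities. -/
theorem ctr_comp [FiniteDimensional F A] (hA : Nondeg QA) (ha : HB QA a1 a2 a3)
    (hb : HB QB b1 b2 b3) {σ : B ≃ₗ[F] A} {μ : F} (hμ : μ ≠ 0)
    (hσ : ∀ b, QA (σ b) = μ * QB b) (m : A →ₗ[F] A →ₗ[F] F) :
    ctr QB b1 b2 b3 (m.compl₁₂ σ.toLinearMap σ.toLinearMap) = μ * ctr QA a1 a2 a3 m := by
  have hpol : ∀ b b', polar QA (σ b) (σ b') = μ * polar QB b b' := by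
    intro b b'
    simp only [polar, ← map_add, hσ]
    ring
  have hc : HB QA (σ b1) (σ b2) (μ⁻¹ • σ b3) := by
    refine ⟨⟨?_, ?_, ?_⟩, ?_, ?_, ?_, ?_⟩
    · rw [hσ, hb.hyp.left, mul_zero]
    · rw [QuadraticMap.map_smul, hσ, hb.hyp.right, mul_zero, smul_zero]
    · rw [polar_smul_right, hpol, hb.p13, mul_one, smul_eq_mul, inv_mul_cancel₀ hμ]
    · rw [hpol, hb.p12, mul_zero]
    · rw [polar_smul_left, hpol, hb.p32, mul_zero, smul_zero]
    · rw [hσ]
      exact mul_ne_zero hμ hb.q2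
    · intro y
      obtain ⟨y, rfl⟩ := σ.surjective y
      rw [polar_smul_left, hpol, hpol, hpol, hσ]
      conv_lhs => rw [hb.span y, map_add, map_add, map_smul, map_smul, map_smul]
      rw [smul_smul, smul_eq_mul]
      congr 1
      · congr 1
        · rw [← mul_assoc, inv_mul_cancel₀ hμ, one_mul]
        · congr 1
          have h2 : μ * (2 * (μ * QB b2))⁻¹ = (2 * QB b2)⁻¹ := by
            rw [mul_left_comm 2 μ, mul_inv μ, ← mul_assoc, mul_inv_cancel₀ hμ, one_mul]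
          rw [← h2]
          ring
      · congr 1
        field_simp
  rw [ctr_eq hA ha hc]
  simp only [ctr, LinearMap.compl₁₂_apply, LinearEquiv.coe_coe, map_smul, LinearMap.smul_apply,
    smul_eq_mul, hσ]
  have h1 : μ * (μ⁻¹ * m (σ b1) (σ b3) + (2 * (μ * QB b2))⁻¹ * m (σ b2) (σ b2) +
      μ⁻¹ * m (σ b3) (σ b1)) = (μ * μ⁻¹) * m (σ b1) (σ b3) +
      (μ * (2 * (μ * QB b2))⁻¹) * m (σ b2) (σ b2) + (μ * μ⁻¹) * m (σ b3) (σ b1) := by ring
  have h2 : μ * (2 * (μ * QB b2))⁻¹ = (2 * QB b2)⁻¹ := by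
    rw [mul_left_comm 2 μ, mul_inv μ, ← mul_assoc, mul_inv_cancel₀ hμ, one_mul]
  rw [h1, h2, mul_inv_cancel₀ hμ, one_mul, one_mul]

/-- Contraction of the `B`-slots. -/
def cB (ten : A →ₗ[F] B →ₗ[F] V) (QB : QuadraticForm F B) (b1 b2 b3 : B) :
    (V →ₗ[F] V →ₗ[F] F) →ₗ[F] (A →ₗ[F] A →ₗ[F] F) where
  toFun M := M.compl₁₂ (ten.flip b1) (ten.flip b3) +
    (2 * QB b2)⁻¹ • M.compl₁₂ (ten.flip b2) (ten.flip b2) + M.compl₁₂ (ten.flip b3) (ten.flip b1)
  map_add' M N := by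
    ext a a'
    simp only [LinearMap.add_apply, LinearMap.smul_apply, LinearMap.compl₁₂_apply, smul_eq_mul]
    ring
  map_smul' c M := by
    ext a a'
    simp only [LinearMap.add_apply, LinearMap.smul_apply, LinearMap.compl₁₂_apply, smul_eq_mul,
      RingHom.id_apply]
    ring

theorem cB_apply (M : V →ₗ[F] V →ₗ[F] F) (a a' : A) : cB ten QB b1 b2 b3 M a a' =
    ctr QB b1 b2 b3 (M.compl₁₂ (ten a) (ten a')) := rfl

/-- `η ↦ η ⊗ polar QB`. -/
noncomputable def TD.mL (h : TD Q QA QB ten) (ω : B →ₗ[F] B →ₗ[F] F) :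
    (A →ₗ[F] A →ₗ[F] F) →ₗ[F] (V →ₗ[F] V →ₗ[F] F) where
  toFun η := h.mko η ω
  map_add' η η' := by
    refine h.ext₂ fun a b x y => ?_
    rw [LinearMap.add_apply, LinearMap.add_apply, h.mko_ten, h.mko_ten, h.mko_ten,
      LinearMap.add_apply, LinearMap.add_apply]
    ring
  map_smul' c η := by
    refine h.ext₂ fun a b x y => ?_
    rw [LinearMap.smul_apply, LinearMap.smul_apply, h.mko_ten, h.mko_ten, LinearMap.smul_apply,
      LinearMap.smul_apply, smul_eq_mul, smul_eq_mul, RingHom.id_apply]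
    ring

theorem TD.mL_apply (h : TD Q QA QB ten) (ω : B →ₗ[F] B →ₗ[F] F) (η : A →ₗ[F] A →ₗ[F] F) (a : A)
    (b : B) (x : A) (y : B) : h.mL ω η (ten a b) (ten x y) = η a x * ω b y := h.mko_ten η ω a b x y

/-- The projection. -/
noncomputable def TD.p5 (h : TD Q QA QB ten) (a1 a2 a3 : A) (b1 b2 b3 : B) :
    Module.End F (V →ₗ[F] V →ₗ[F] F) :=
  (3 : F)⁻¹ • (h.mL (polarBilin QB) ∘ₗ cB ten QB b1 b2 b3 +
    h.flip.mL (polarBilin QA) ∘ₗ cB ten.flip QA a1 a2 a3)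

theorem TD.p5_ten (h : TD Q QA QB ten) (M : V →ₗ[F] V →ₗ[F] F) (a : A) (b : B) (x : A) (y : B) :
    h.p5 a1 a2 a3 b1 b2 b3 M (ten a b) (ten x y) = (3 : F)⁻¹ *
      (ctr QB b1 b2 b3 (M.compl₁₂ (ten a) (ten x)) * polar QB b y +
        polar QA a x * ctr QA a1 a2 a3 (M.compl₁₂ (ten.flip b) (ten.flip y))) := by
  have e : h.flip.mL (polarBilin QA) (cB ten.flip QA a1 a2 a3 M) (ten a b) (ten x y) =
      ctr QA a1 a2 a3 (M.compl₁₂ (ten.flip b) (ten.flip y)) * polar QA a x :=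
    h.flip.mL_apply (polarBilin QA) (cB ten.flip QA a1 a2 a3 M) b a y x
  rw [TD.p5, LinearMap.smul_apply, LinearMap.add_apply, LinearMap.comp_apply,
    LinearMap.comp_apply, LinearMap.smul_apply, LinearMap.smul_apply, LinearMap.add_apply,
    LinearMap.add_apply, e, h.mL_apply, cB_apply, smul_eq_mul, polarBilin_apply_apply]
  ring

/-- The factor of similarity of a decomposable isometry. -/
theorem TD.similarity (h : TD Q QA QB ten) {g : V ≃ₗ[F] V} (hg : g ∈ O Q) {A' B' : Type*}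
    [AddCommGroup A'] [Module F A'] [AddCommGroup B'] [Module F B'] {QA' : QuadraticForm F A'}
    {QB' : QuadraticForm F B'} {ten' : A' →ₗ[F] B' →ₗ[F] V} (h' : TD Q QA' QB' ten')
    [Nontrivial A'] [Nontrivial B'] {α : A' ≃ₗ[F] A} {β : B' ≃ₗ[F] B}
    (hαβ : ∀ a b, g (ten' a b) = ten (α a) (β b)) :
    ∃ μ : F, μ ≠ 0 ∧ (∀ a, QA (α a) = μ * QA' a) ∧ (∀ b, QB (β b) = μ⁻¹ * QB' b) := by
  have hiso : ∀ a a' b b', polar QA (α a) (α a') * polar QB (β b) (β b') =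
      polar QA' a a' * polar QB' b b' := by
    intro a a' b b'
    rw [← h.form, ← hαβ, ← hαβ, polar_map hg, h'.form]
  obtain ⟨a0, ha0⟩ := exists_ne (0 : A')
  obtain ⟨b0, hb0⟩ := exists_ne (0 : B')
  obtain ⟨a1, ha1⟩ := h'.nA.exists_polar_eq ha0 1
  obtain ⟨b1, hb1⟩ := h'.nB.exists_polar_eq hb0 1
  have h1 := hiso a0 a1 b0 b1
  rw [ha1, hb1, mul_one] at h1
  have hμ0 : polar QA (α a0) (α a1) ≠ 0 := left_ne_zero_of_mul_eq_one h1
  have hinv : polar QB (β b0) (β b1) = (polar QA (α a0) (α a1))⁻¹ :=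
    (eq_inv_of_mul_eq_one_right h1)
  refine ⟨polar QA (α a0) (α a1), hμ0, fun a => ?_, fun b => ?_⟩
  · have h2 := hiso a a b0 b1
    rw [hb1, mul_one, polar_self', polar_self', hinv] at h2
    have h3 : 2 * QA (α a) = (2 * QA' a) * polar QA (α a0) (α a1) := by
      rw [← h2, mul_assoc, inv_mul_cancel₀ hμ0, mul_one]
    have h4 : 2 * QA (α a) = 2 * (polar QA (α a0) (α a1) * QA' a) := by rw [h3]; ring
    exact mul_left_cancel₀ h.two h4
  · have h2 := hiso a0 a1 b b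
    rw [ha1, one_mul, polar_self', polar_self'] at h2
    have h4 : 2 * QB (β b) = 2 * ((polar QA (α a0) (α a1))⁻¹ * QB' b) := by
      have : 2 * QB (β b) = (polar QA (α a0) (α a1))⁻¹ *
          (polar QA (α a0) (α a1) * (2 * QB (β b))) := by
        rw [← mul_assoc, inv_mul_cancel₀ hμ0, one_mul]
      rw [this, h2]
      ring
    exact mul_left_cancel₀ h.two h4

/-- The projection commutes with the isometries preserving the decomposition. -/
theorem TD.p5_comm [FiniteDimensional F A] [FiniteDimensional F B] [Nontrivial A] [Nontrivial B]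
    (h : TD Q QA QB ten) (ha : HB QA a1 a2 a3) (hb : HB QB b1 b2 b3)
    {g : V ≃ₗ[F] V} (hgO : g ∈ O Q) (hg : DS ten g) :
    rho F V g * h.p5 a1 a2 a3 b1 b2 b3 = h.p5 a1 a2 a3 b1 b2 b3 * rho F V g := by
  have hgi : g⁻¹ ∈ O Q := (O Q).inv_mem hgO
  refine LinearMap.ext fun M => h.ext₂ fun a b x y => ?_
  rw [Module.End.mul_apply, Module.End.mul_apply, rho_apply, h.p5_ten]
  rcases hg.inv with ⟨α, β, hαβ⟩ | ⟨σ, τ, hστ⟩
  · obtain ⟨μ, hμ, hα, hβ⟩ := h.similarity hgi h hαβ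
    have hμi : μ⁻¹ ≠ 0 := inv_ne_zero hμ
    rw [hαβ, hαβ, h.p5_ten]
    have e1 : (rho F V g M).compl₁₂ (ten a) (ten x) =
        (M.compl₁₂ (ten (α a)) (ten (α x))).compl₁₂ β.toLinearMap β.toLinearMap := by
      ext y y'
      show M ((g⁻¹ : V ≃ₗ[F] V) (ten a y)) ((g⁻¹ : V ≃ₗ[F] V) (ten x y')) = _
      rw [hαβ, hαβ]
      rfl
    have e2 : (rho F V g M).compl₁₂ (ten.flip b) (ten.flip y) =
        (M.compl₁₂ (ten.flip (β b)) (ten.flip (β y))).compl₁₂ α.toLinearMap α.toLinearMap := by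
      ext y' y''
      show M ((g⁻¹ : V ≃ₗ[F] V) (ten y' b)) ((g⁻¹ : V ≃ₗ[F] V) (ten y'' y)) = _
      rw [hαβ, hαβ]
      rfl
    rw [e1, e2, ctr_comp h.nB hb hb hμi hβ, ctr_comp h.nA ha ha hμ hα]
    have e3 : polar QB (β b) (β y) = μ⁻¹ * polar QB b y := by
      simp only [polar, ← map_add, hβ]
      ring
    have e4 : polar QA (α a) (α x) = μ * polar QA a x := by
      simp only [polar, ← map_add, hα]
      ring
    rw [e3, e4]
    ring
  · obtain ⟨μ, hμ, hσ, hτ⟩ := h.similarity hgi h.flip (α := σ) (β := τ) (fun b a => hστ a b)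
    have hμi : μ⁻¹ ≠ 0 := inv_ne_zero hμ
    rw [hστ, hστ, h.p5_ten]
    have e1 : (rho F V g M).compl₁₂ (ten a) (ten x) =
        (M.compl₁₂ (ten.flip (τ a)) (ten.flip (τ x))).compl₁₂ σ.toLinearMap σ.toLinearMap := by
      ext y y'
      show M ((g⁻¹ : V ≃ₗ[F] V) (ten a y)) ((g⁻¹ : V ≃ₗ[F] V) (ten x y')) = _
      rw [hστ, hστ]
      rfl
    have e2 : (rho F V g M).compl₁₂ (ten.flip b) (ten.flip y) =
        (M.compl₁₂ (ten (σ b)) (ten (σ y))).compl₁₂ τ.toLinearMap τ.toLinearMap := by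
      ext y' y''
      show M ((g⁻¹ : V ≃ₗ[F] V) (ten y' b)) ((g⁻¹ : V ≃ₗ[F] V) (ten y'' y)) = _
      rw [hστ, hστ]
      rfl
    rw [e1, e2, ctr_comp h.nA ha hb hμ hσ, ctr_comp h.nB hb ha hμi hτ]
    have e3 : polar QA (σ b) (σ y) = μ * polar QB b y := by
      simp only [polar, ← map_add, hσ]
      ring
    have e4 : polar QB (τ a) (τ x) = μ⁻¹ * polar QA a x := by
      simp only [polar, ← map_add, hτ]
      ring
    rw [e3, e4]
    ring

/-- The alternating (skew) bilinear forms. -/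
def Sk (F V : Type*) [Field F] [AddCommGroup V] [Module F V] :
    Submodule F (V →ₗ[F] V →ₗ[F] F) where
  carrier := {M | ∀ v w, M w v = - M v w}
  zero_mem' := fun v w => by simp
  add_mem' := by
    intro M N hM hN v w
    rw [LinearMap.add_apply, LinearMap.add_apply, LinearMap.add_apply, LinearMap.add_apply,
      hM v w, hN v w]
    ring
  smul_mem' := by
    intro c M hM v w
    rw [LinearMap.smul_apply, LinearMap.smul_apply, LinearMap.smul_apply, LinearMap.smul_apply,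
      hM v w, smul_neg]

theorem mem_Sk {M : V →ₗ[F] V →ₗ[F] F} : M ∈ Sk F V ↔ ∀ v w, M w v = - M v w := Iff.rfl

theorem TD.mem_Sk_of_ten (h : TD Q QA QB ten) {M : V →ₗ[F] V →ₗ[F] F}
    (hM : ∀ a b x y, M (ten x y) (ten a b) = - M (ten a b) (ten x y)) : M ∈ Sk F V := by
  have e : M.flip = - M := by
    refine h.ext₂ fun a b x y => ?_
    rw [LinearMap.flip_apply, hM]
    rfl
  intro v w
  have := LinearMap.congr_fun₂ e v w
  simpa using this

theorem rho_mem_Sk (g : V ≃ₗ[F] V) {M : V →ₗ[F] V →ₗ[F] F} (hM : M ∈ Sk F V) :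
    rho F V g M ∈ Sk F V := fun v w => hM _ _

theorem ctr_skew (h2 : (2 : F) ≠ 0) {m : B →ₗ[F] B →ₗ[F] F} (hm : ∀ y y', m y' y = - m y y') :
    ctr QB b1 b2 b3 m = 0 := by
  have e : m b2 b2 = 0 := by
    have := hm b2 b2
    have h3 : 2 * m b2 b2 = 0 := by linear_combination this
    exact (mul_eq_zero.1 h3).resolve_left h2
  rw [ctr, e, hm b1 b3]
  ring

theorem ctr_smul (c : F) (m : B →ₗ[F] B →ₗ[F] F) :
    ctr QB b1 b2 b3 (c • m) = c * ctr QB b1 b2 b3 m := by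
  simp only [ctr, LinearMap.smul_apply, smul_eq_mul]
  ring

theorem ctr_polar (h2 : (2 : F) ≠ 0) (hb : HB QB b1 b2 b3) :
    ctr QB b1 b2 b3 (polarBilin QB) = 3 := by
  simp only [ctr, polarBilin_apply_apply, hb.p13, hb.p31, hb.p22,
    inv_mul_cancel₀ (mul_ne_zero h2 hb.q2)]
  norm_num

theorem TD.ctr_flip_skew (h : TD Q QA QB ten) {M : V →ₗ[F] V →ₗ[F] F} (hM : M ∈ Sk F V) (a x : A) :
    ctr QB b1 b2 b3 (M.compl₁₂ (ten x) (ten a)) =
      - ctr QB b1 b2 b3 (M.compl₁₂ (ten a) (ten x)) := by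
  simp only [ctr, LinearMap.compl₁₂_apply]
  rw [hM (ten a b3) (ten x b1), hM (ten a b2) (ten x b2), hM (ten a b1) (ten x b3)]
  ring

theorem TD.p5_mem_Sk (h : TD Q QA QB ten) {M : V →ₗ[F] V →ₗ[F] F} (hM : M ∈ Sk F V) :
    h.p5 a1 a2 a3 b1 b2 b3 M ∈ Sk F V := by
  refine h.mem_Sk_of_ten fun a b x y => ?_
  rw [h.p5_ten, h.p5_ten, h.ctr_flip_skew hM a x]
  have e : ctr QA a1 a2 a3 (M.compl₁₂ (ten.flip y) (ten.flip b)) =
      - ctr QA a1 a2 a3 (M.compl₁₂ (ten.flip b) (ten.flip y)) :=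
    h.flip.ctr_flip_skew hM b y
  rw [e, polar_comm QB y b, polar_comm QA x a]
  ring

/-- The projection fixes `η ⊗ polar QB`, `η` skew. -/
theorem TD.p5_mL (h : TD Q QA QB ten) (h3 : (3 : F) ≠ 0) (ha : HB QA a1 a2 a3)
    (hb : HB QB b1 b2 b3) {η : A →ₗ[F] A →ₗ[F] F}
    (hη : ∀ a x, η x a = - η a x) :
    h.p5 a1 a2 a3 b1 b2 b3 (h.mko η (polarBilin QB)) = h.mko η (polarBilin QB) := by
  refine h.ext₂ fun a b x y => ?_
  rw [h.p5_ten, h.mko_ten, polarBilin_apply_apply]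
  have e1 : (h.mko η (polarBilin QB)).compl₁₂ (ten a) (ten x) = η a x • polarBilin QB := by
    ext y y'
    rw [LinearMap.compl₁₂_apply, h.mko_ten]
    rfl
  have e2 : ctr QA a1 a2 a3 ((h.mko η (polarBilin QB)).compl₁₂ (ten.flip b) (ten.flip y)) = 0 := by
    refine ctr_skew h.two fun z z' => ?_
    rw [LinearMap.compl₁₂_apply, LinearMap.compl₁₂_apply, LinearMap.flip_apply,
      LinearMap.flip_apply, LinearMap.flip_apply, LinearMap.flip_apply, h.mko_ten, h.mko_ten,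
      hη]
    ring
  rw [e1, e2, ctr_smul, ctr_polar h.two hb, mul_zero, add_zero]
  have : (3 : F)⁻¹ * (η a x * 3 * polar QB b y) = ((3 : F)⁻¹ * 3) * (η a x * polar QB b y) := by ring
  rw [this, inv_mul_cancel₀ h3, one_mul]

theorem TD.p5_mL' (h : TD Q QA QB ten) (h3 : (3 : F) ≠ 0) (ha : HB QA a1 a2 a3)
    (hb : HB QB b1 b2 b3) {ω : B →ₗ[F] B →ₗ[F] F}
    (hω : ∀ b y, ω y b = - ω b y) :
    h.p5 a1 a2 a3 b1 b2 b3 (h.mko (polarBilin QA) ω) = h.mko (polarBilin QA) ω := by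
  refine h.ext₂ fun a b x y => ?_
  rw [h.p5_ten, h.mko_ten, polarBilin_apply_apply]
  have e1 : (h.mko (polarBilin QA) ω).compl₁₂ (ten.flip b) (ten.flip y) = ω b y • polarBilin QA := by
    ext z z'
    rw [LinearMap.compl₁₂_apply, LinearMap.flip_apply, LinearMap.flip_apply, h.mko_ten, mul_comm]
    rfl
  have e2 : ctr QB b1 b2 b3 ((h.mko (polarBilin QA) ω).compl₁₂ (ten a) (ten x)) = 0 := by
    refine ctr_skew h.two fun z z' => ?_
    rw [LinearMap.compl₁₂_apply, LinearMap.compl₁₂_apply, h.mko_ten, h.mko_ten, hω]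
    ring
  rw [e1, e2, ctr_smul, ctr_polar h.two ha, zero_mul, zero_add]
  have : (3 : F)⁻¹ * (polar QA a x * (ω b y * 3)) = ((3 : F)⁻¹ * 3) * (polar QA a x * ω b y) := by ring
  rw [this, inv_mul_cancel₀ h3, one_mul]

/-- `p5 M` for skew `M`. -/
theorem TD.p5_eq (h : TD Q QA QB ten) (M : V →ₗ[F] V →ₗ[F] F) :
    h.p5 a1 a2 a3 b1 b2 b3 M =
      (3 : F)⁻¹ • (h.mko (cB ten QB b1 b2 b3 M) (polarBilin QB) +
        h.mko (polarBilin QA) (cB ten.flip QA a1 a2 a3 M)) := by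
  refine h.ext₂ fun a b x y => ?_
  rw [h.p5_ten, LinearMap.smul_apply, LinearMap.smul_apply, LinearMap.add_apply,
    LinearMap.add_apply, h.mko_ten, h.mko_ten, cB_apply, polarBilin_apply_apply,
    polarBilin_apply_apply, smul_eq_mul]
  rfl

theorem TD.cB_skew (h : TD Q QA QB ten) {M : V →ₗ[F] V →ₗ[F] F} (hM : M ∈ Sk F V) (a x : A) :
    cB ten QB b1 b2 b3 M x a = - cB ten QB b1 b2 b3 M a x := h.ctr_flip_skew hM a x

theorem TD.p5_p5 (h : TD Q QA QB ten) (h3 : (3 : F) ≠ 0) (ha : HB QA a1 a2 a3)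
    (hb : HB QB b1 b2 b3) {M : V →ₗ[F] V →ₗ[F] F} (hM : M ∈ Sk F V) :
    h.p5 a1 a2 a3 b1 b2 b3 (h.p5 a1 a2 a3 b1 b2 b3 M) = h.p5 a1 a2 a3 b1 b2 b3 M := by
  conv_lhs => rw [h.p5_eq M, map_smul, map_add, h.p5_mL h3 ha hb (h.cB_skew hM),
    h.p5_mL' h3 ha hb (h.flip.cB_skew hM)]
  exact (h.p5_eq M).symm

end Cfsg.Agent.H922.Ten
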