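import Mathlib
import Cfsg.Agent.H922.TenFive

/-!
Tensor decompositions `V = A ⊗ B`, `dim A = dim B = 3`, `q = 5`: a proper overgroup of the
stabiliser preserves the decomposition.
-/

set_option autoImplicit false
set_option linter.unusedSectionVars false

namespace Cfsg.Agent.H922.Ten

open QuadraticMap Cfsg.Agent.LieClassical.OrthCore Cfsg.Agent.LieClassical.OrthTrans
  Cfsg.Agent.LieClassical.OrthSimple Cfsg.Agent.ClassicalGeometry.OrthAutBasic
  Cfsg.Agent.H887.SiegelMethod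

variable {F V A B : Type*} [Field F] [AddCommGroup V] [Module F V] [AddCommGroup A] [Module F A]
  [AddCommGroup B] [Module F B] {Q : QuadraticForm F V} {QA : QuadraticForm F A}
  {QB : QuadraticForm F B} {ten : A →ₗ[F] B →ₗ[F] V}

variable {a1 a2 a3 : A} {b1 b2 b3 : B}

/-! ### flips -/

theorem Dec.flip {g : V ≃ₗ[F] V} (hg : Dec ten g) : Dec ten.flip g := by
  obtain ⟨α, β, h⟩ := hg
  exact ⟨β, α, fun b a => h a b⟩

theorem Sw.flip {g : V ≃ₗ[F] V} (hg : Sw ten g) : Sw ten.flip g := by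
  obtain ⟨σ, τ, h⟩ := hg
  exact ⟨τ, σ, fun b a => h a b⟩

theorem DS.flip {g : V ≃ₗ[F] V} (hg : DS ten g) : DS ten.flip g := by
  rcases hg with hg | hg
  · exact Or.inl hg.flip
  · exact Or.inr hg.flip

theorem Dec.unflip {g : V ≃ₗ[F] V} (hg : Dec ten.flip g) : Dec ten g := by
  obtain ⟨β, α, h⟩ := hg
  exact ⟨α, β, fun a b => h b a⟩

theorem DS.unflip {g : V ≃ₗ[F] V} (hg : DS ten.flip g) : DS ten g := by
  rcases hg with hg | ⟨τ, σ, h⟩
  · exact Or.inl hg.unflip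
  · exact Or.inr ⟨σ, τ, fun a b => h b a⟩

theorem Ov.flip {L : Subgroup (V ≃ₗ[F] V)} (hL : Ov Q ten L) : Ov Q ten.flip L where
  le := hL.le
  dec g hg hd := hL.dec g hg hd.unflip

theorem HS_flip {L : Subgroup (V ≃ₗ[F] V)} : HS ten.flip L = HS ten L := by
  ext g
  exact ⟨fun hg => DS.unflip hg, fun hg => DS.flip hg⟩

theorem TD.p5_flip (h : TD Q QA QB ten) :
    h.flip.p5 b1 b2 b3 a1 a2 a3 = h.p5 a1 a2 a3 b1 b2 b3 := by
  refine LinearMap.ext fun M => h.ext₂ fun a b x y => ?_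
  rw [h.p5_ten]
  have e : h.flip.p5 b1 b2 b3 a1 a2 a3 M (ten a b) (ten x y) = (3 : F)⁻¹ *
      (ctr QA a1 a2 a3 (M.compl₁₂ (ten.flip b) (ten.flip y)) * polar QA a x +
        polar QB b y * ctr QB b1 b2 b3 (M.compl₁₂ (ten a) (ten x))) :=
    h.flip.p5_ten M b a y x
  rw [e]
  ring

theorem TD.mko_flip (h : TD Q QA QB ten) (η : A →ₗ[F] A →ₗ[F] F) (ω : B →ₗ[F] B →ₗ[F] F) :
    h.flip.mko ω η = h.mko η ω := by
  refine h.ext₂ fun a b x y => ?_
  rw [h.mko_ten]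
  have e : h.flip.mko ω η (ten a b) (ten x y) = ω b y * η a x := h.flip.mko_ten ω η b a y x
  rw [e, mul_comm]

theorem TD.p5_indep [FiniteDimensional F A] [FiniteDimensional F B] (h : TD Q QA QB ten)
    (ha : HB QA a1 a2 a3) (hb : HB QB b1 b2 b3) {x1 x2 x3 : A} {y1 y2 y3 : B}
    (hx : HB QA x1 x2 x3) (hy : HB QB y1 y2 y3) :
    h.p5 a1 a2 a3 b1 b2 b3 = h.p5 x1 x2 x3 y1 y2 y3 := by
  refine LinearMap.ext fun M => h.ext₂ fun a b x y => ?_
  rw [h.p5_ten, h.p5_ten, ctr_eq h.nB hb hy, ctr_eq h.nA ha hx]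

/-! ### sums over the field with five elements -/

theorem sum_poly5 [Fintype F] (hF : Fintype.card F = 5) (c0 c1 c2 c3 c4 : F) :
    ∑ t : F, (c0 + c1 * t + c2 * t ^ 2 + c3 * t ^ 3 + c4 * t ^ 4) = - c4 := by
  classical
  have hs : ∀ i, i ≤ 3 → ∑ t : F, t ^ i = 0 := fun i hi =>
    FiniteField.sum_pow_lt_card_sub_one F i (by omega)
  have h1 : ∑ t : F, t = 0 := by
    have := hs 1 (by omega)
    simpa using this
  have h0 := hs 0 (by omega)
  simp only [pow_zero] at h0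
  have h4 : ∑ t : F, t ^ 4 = -1 := by
    have e : ∀ t : F, t ^ 4 = 1 - if t = 0 then 1 else 0 := by
      intro t
      by_cases ht : t = 0
      · rw [if_pos ht, ht]
        ring
      · rw [if_neg ht, sub_zero]
        have := FiniteField.pow_card_sub_one_eq_one t ht
        rwa [hF] at this
    rw [Finset.sum_congr rfl fun t _ => e t, Finset.sum_sub_distrib, h0, Finset.sum_ite_eq']
    simp
  have h6 : ∑ t : F, c1 * t = c1 * ∑ t : F, t := (Finset.mul_sum _ _ _).symm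
  simp only [Finset.sum_add_distrib, h6, ← Finset.mul_sum, hs 2 (by omega), hs 3 (by omega),
    h4, h1]
  have h5 : ∑ _t : F, c0 = c0 * ∑ _t : F, 1 := by rw [Finset.mul_sum]; simp
  rw [h5, h0]
  ring

theorem TD.sum_jB [Fintype F] [Fintype (Multiplicative F)] (hF : Fintype.card F = 5)
    (h : TD Q QA QB ten) {L : Subgroup (V ≃ₗ[F] V)}
    (hL : Ov Q ten L) (hG : Good Q) (hb : HB QB b1 b2 b3) (Y : V →ₗ[F] V →ₗ[F] F) (v w : V) :
    (∑ d, ((rho F V).comp L.subtype) (h.jB hL hG hb d) Y) v w =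
      - Y (h.mB (nu2 QB b1 b2) v) (h.mB (nu2 QB b1 b2) w) := by
  rw [LinearMap.sum_apply, LinearMap.sum_apply]
  have e : ∀ d : Multiplicative F, ((rho F V).comp L.subtype) (h.jB hL hG hb d) Y v w =
      (Y v w + (-(Y (h.mB (nu QB b1 b2) v) w) - Y v (h.mB (nu QB b1 b2) w)) * d.toAdd +
      (Y (h.mB (nu2 QB b1 b2) v) w + Y v (h.mB (nu2 QB b1 b2) w) +
        Y (h.mB (nu QB b1 b2) v) (h.mB (nu QB b1 b2) w)) * d.toAdd ^ 2 +
      (-(Y (h.mB (nu2 QB b1 b2) v) (h.mB (nu QB b1 b2) w)) -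
        Y (h.mB (nu QB b1 b2) v) (h.mB (nu2 QB b1 b2) w)) * d.toAdd ^ 3 +
      Y (h.mB (nu2 QB b1 b2) v) (h.mB (nu2 QB b1 b2) w) * d.toAdd ^ 4) := by
    intro d
    have e1 : ((rho F V).comp L.subtype) (h.jB hL hG hb d) Y v w =
      Y ((((h.jB hL hG hb d : L) : V ≃ₗ[F] V)⁻¹ : V ≃ₗ[F] V) v)
        ((((h.jB hL hG hb d : L) : V ≃ₗ[F] V)⁻¹ : V ≃ₗ[F] V) w) := rfl
    rw [e1, h.jB_inv, h.jB_inv]
    simp only [map_add, map_smul, LinearMap.add_apply, LinearMap.smul_apply, smul_eq_mul]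
    ring
  rw [Finset.sum_congr rfl fun d _ => e d]
  have e2 := sum_poly5 hF (Y v w) (-(Y (h.mB (nu QB b1 b2) v) w) - Y v (h.mB (nu QB b1 b2) w))
      (Y (h.mB (nu2 QB b1 b2) v) w + Y v (h.mB (nu2 QB b1 b2) w) +
        Y (h.mB (nu QB b1 b2) v) (h.mB (nu QB b1 b2) w))
      (-(Y (h.mB (nu2 QB b1 b2) v) (h.mB (nu QB b1 b2) w)) -
        Y (h.mB (nu QB b1 b2) v) (h.mB (nu2 QB b1 b2) w))
      (Y (h.mB (nu2 QB b1 b2) v) (h.mB (nu2 QB b1 b2) w))
  rw [← e2]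
  exact Fintype.sum_equiv Multiplicative.toAdd _ _ fun d => rfl

section main

variable [Finite F] [FiniteDimensional F A] [FiniteDimensional F B]

/-- The defect is symmetric in the `B`-slots. -/
theorem tr5_sym (hF : Nat.card F = 5) (h : TD Q QA QB ten) {L : Subgroup (V ≃ₗ[F] V)}
    [Finite L] (hL : Ov Q ten L) (hG : Good Q) (hne : ¬ E Q ≤ L) (ha : HB QA a1 a2 a3)
    (hdA : Module.finrank F A = 3) (hdB : Module.finrank F B = 3) (hb : HB QB b1 b2 b3)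
    {s0 : V ≃ₗ[F] V} (hs0 : s0 ∈ L) (hsw : Sw ten s0) {M : V →ₗ[F] V →ₗ[F] F}
    (hM : ∀ t, ((rho F V).comp L.subtype) (h.jB hL hG hb t) M = M) (a x : A) (b y : B) :
    (Trace.tr ((rho F V).comp L.subtype) (HS ten L) (h.p5 a1 a2 a3 b1 b2 b3) M -
      h.p5 a1 a2 a3 b1 b2 b3 M) (ten a y) (ten x b) =
    (Trace.tr ((rho F V).comp L.subtype) (HS ten L) (h.p5 a1 a2 a3 b1 b2 b3) M -
      h.p5 a1 a2 a3 b1 b2 b3 M) (ten a b) (ten x y) := by
  have hFt : Fintype F := Fintype.ofFinite F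
  have : Fintype (Multiplicative F) := Fintype.ofFinite _
  have : Nontrivial A := Module.nontrivial_of_finrank_pos (R := F) (by omega)
  have : Nontrivial B := Module.nontrivial_of_finrank_pos (R := F) (by omega)
  have hF5 : 5 ≤ Nat.card F := by omega
  rw [Nat.card_eq_fintype_card] at hF
  obtain ⟨Y, hY⟩ := Trace.tr_apply (F := F) (X := V →ₗ[F] V →ₗ[F] F)
    (ρ := (rho F V).comp L.subtype) (H := HS ten L) (π := h.p5 a1 a2 a3 b1 b2 b3)
    (fun g hg => h.p5_comm ha hb (hL.leO g.2) hg) (h.jB hL hG hb)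
    (fun d => Or.inl (h.dec_tm _ _))
    (fun d hd g hgd => by
      refine fusion hF5 h hL hG hne ha hdA hdB hb hs0 hsw (c := d.toAdd)
        (fun h0 => hd (by rw [← ofAdd_toAdd d, h0]; rfl)) g.2
        (g⁻¹ * h.jB hL hG hb d * g).2 ?_ hgd
      rw [← h.jB_coe hL hG hb, ← Subgroup.coe_mul, ← Subgroup.coe_mul]
      congr 1
      group) hM
  rw [hY, add_sub_cancel_left, h.sum_jB hF, h.sum_jB hF, h.mB_ten, h.mB_ten, h.mB_ten, h.mB_ten]
  simp only [nu2, LinearMap.smul_apply, LinearMap.smulRight_apply, polarBilin_apply_apply,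
    map_smul, smul_eq_mul]
  ring

/-- Forms fixed by both one-parameter groups. -/
theorem tr5_eq_of_fix (hF : Nat.card F = 5) (h : TD Q QA QB ten) {L : Subgroup (V ≃ₗ[F] V)}
    [Finite L] (hL : Ov Q ten L) (hG : Good Q) (hne : ¬ E Q ≤ L) (ha : HB QA a1 a2 a3)
    (hdA : Module.finrank F A = 3) (hdB : Module.finrank F B = 3) (hb : HB QB b1 b2 b3)
    {s0 : V ≃ₗ[F] V} (hs0 : s0 ∈ L) (hsw : Sw ten s0) {M : V →ₗ[F] V →ₗ[F] F}
    (hMS : M ∈ Sk F V)
    (hM : ∀ t, ((rho F V).comp L.subtype) (h.jB hL hG hb t) M = M)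
    (hM' : ∀ t, ((rho F V).comp L.subtype) (h.flip.jB hL.flip hG ha t) M = M) :
    Trace.tr ((rho F V).comp L.subtype) (HS ten L) (h.p5 a1 a2 a3 b1 b2 b3) M =
      h.p5 a1 a2 a3 b1 b2 b3 M := by
  have hRt : Trace.tr ((rho F V).comp L.subtype) (HS ten L) (h.p5 a1 a2 a3 b1 b2 b3) M ∈ Sk F V :=
    Trace.tr_mem (F := F) (G := L) (X := V →ₗ[F] V →ₗ[F] F)
      (ρ := (rho F V).comp L.subtype) (H := HS ten L) (π := h.p5 a1 a2 a3 b1 b2 b3) (Sk F V)
      (fun g x hx => rho_mem_Sk _ hx) (fun x hx => h.p5_mem_Sk hx) hMS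
  have hRp : h.p5 a1 a2 a3 b1 b2 b3 M ∈ Sk F V := h.p5_mem_Sk hMS
  have hRS : ∀ v w, (Trace.tr ((rho F V).comp L.subtype) (HS ten L) (h.p5 a1 a2 a3 b1 b2 b3) M -
      h.p5 a1 a2 a3 b1 b2 b3 M) w v = - (Trace.tr ((rho F V).comp L.subtype) (HS ten L)
      (h.p5 a1 a2 a3 b1 b2 b3) M - h.p5 a1 a2 a3 b1 b2 b3 M) v w := by
    intro v w
    rw [LinearMap.sub_apply, LinearMap.sub_apply, LinearMap.sub_apply, LinearMap.sub_apply,
      hRt v w, hRp v w]
    ring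
  have h1 := tr5_sym hF h hL hG hne ha hdA hdB hb hs0 hsw hM
  have h2 := tr5_sym hF h.flip hL.flip hG hne hb hdB hdA ha hs0 hsw.flip hM'
  rw [HS_flip, h.p5_flip] at h2
  rw [← sub_eq_zero]
  set R := Trace.tr ((rho F V).comp L.subtype) (HS ten L) (h.p5 a1 a2 a3 b1 b2 b3) M -
      h.p5 a1 a2 a3 b1 b2 b3 M with hR
  refine h.ext₂ fun a b x y => ?_
  have e1 : R (ten a y) (ten x b) = R (ten a b) (ten x y) := h1 a x b y
  have e2 : R (ten x y) (ten a b) = R (ten a y) (ten x b) := h2 y b a x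
  have e3 := hRS (ten a b) (ten x y)
  rw [e2, e1] at e3
  have e4 : 2 * R (ten a b) (ten x y) = 0 := by linear_combination e3
  exact (mul_eq_zero.1 e4).resolve_left h.two

end main

end Cfsg.Agent.H922.Ten
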