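import Mathlib
import Cfsg.Agent.H922.TenFiveTwo
import Cfsg.Agent.H922.TenSkew

/-!
Tensor decompositions `V = A ⊗ B`, `dim A = dim B = 3`, `q = 5`: conclusion.
-/

set_option autoImplicit false
set_option linter.unusedSectionVars false

namespace Cfsg.Agent.H922.Ten

open QuadraticMap Cfsg.Agent.LieClassical.OrthCore Cfsg.Agent.LieClassical.OrthTrans
  Cfsg.Agent.LieClassical.OrthSimple Cfsg.Agent.ClassicalGeometry.OrthAutBasic
  Cfsg.Agent.H887.SiegelMethod

variable {F V A B : Type*} [Field F] [AddCommGroup V] [Module F V] [AddCommGroup A] [Module F A]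
  [AddCommGroup B] [Module F B] {Q : QuadraticForm F V} {QA : QuadraticForm F A}
  {QB : QuadraticForm F B} {ten : A →ₗ[F] B →ₗ[F] V}

variable {a1 a2 a3 : A} {b1 b2 b3 : B}

/-- `ω ↦ η ⊗ ω`. -/
noncomputable def TD.mR (h : TD Q QA QB ten) (η : A →ₗ[F] A →ₗ[F] F) :
    (B →ₗ[F] B →ₗ[F] F) →ₗ[F] (V →ₗ[F] V →ₗ[F] F) where
  toFun ω := h.mko η ω
  map_add' ω ω' := by
    refine h.ext₂ fun a b x y => ?_
    rw [LinearMap.add_apply, LinearMap.add_apply, h.mko_ten, h.mko_ten, h.mko_ten,
      LinearMap.add_apply, LinearMap.add_apply]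
    ring
  map_smul' c ω := by
    refine h.ext₂ fun a b x y => ?_
    rw [LinearMap.smul_apply, LinearMap.smul_apply, h.mko_ten, h.mko_ten, LinearMap.smul_apply,
      LinearMap.smul_apply, smul_eq_mul, smul_eq_mul, RingHom.id_apply]
    ring

theorem TD.mR_eq (h : TD Q QA QB ten) (η : A →ₗ[F] A →ₗ[F] F) (ω : B →ₗ[F] B →ₗ[F] F) :
    h.mR η ω = h.mko η ω := rfl

theorem TD.rho_mko' (h : TD Q QA QB ten) {α : A ≃ₗ[F] A} (hα : α ∈ O QA)
    (ω : B →ₗ[F] B →ₗ[F] F) :
    rho F V (h.tm α 1) (h.mko (polarBilin QA) ω) = h.mko (polarBilin QA) ω := by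
  refine h.ext₂ fun a b a' b' => ?_
  have e : ∀ (a : A) (b : B), ((h.tm α 1)⁻¹ : V ≃ₗ[F] V) (ten a b) = ten ((α⁻¹ : A ≃ₗ[F] A) a) b := by
    intro a b
    rw [h.tm_inv, h.tm_ten]
    rfl
  rw [rho_apply, e, e, h.mko_ten, h.mko_ten, polarBilin_apply_apply, polarBilin_apply_apply,
    polar_map ((O QA).inv_mem hα)]

theorem mko_mem_Sk (h : TD Q QA QB ten) {ω : B →ₗ[F] B →ₗ[F] F} (hω : ∀ b y, ω y b = - ω b y) :
    h.mko (polarBilin QA) ω ∈ Sk F V := by
  refine h.mem_Sk_of_ten fun a b x y => ?_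
  rw [h.mko_ten, h.mko_ten, hω, polarBilin_apply_apply, polarBilin_apply_apply, polar_comm]
  ring

section main

variable [Finite F] [FiniteDimensional F A] [FiniteDimensional F B]

theorem tr5_id_right (hF : Nat.card F = 5) (h3 : (3 : F) ≠ 0) (h : TD Q QA QB ten)
    {L : Subgroup (V ≃ₗ[F] V)}
    [Finite L] (hL : Ov Q ten L) (hG : Good Q) (hne : ¬ E Q ≤ L) (ha : HB QA a1 a2 a3)
    (hdA : Module.finrank F A = 3) (hdB : Module.finrank F B = 3) (hb : HB QB b1 b2 b3)
    {s0 : V ≃ₗ[F] V} (hs0 : s0 ∈ L) (hsw : Sw ten s0) {ω : B →ₗ[F] B →ₗ[F] F}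
    (hω : ∀ b y, ω y b = - ω b y) :
    Trace.tr ((rho F V).comp L.subtype) (HS ten L) (h.p5 a1 a2 a3 b1 b2 b3)
      (h.mko (polarBilin QA) ω) = h.mko (polarBilin QA) ω := by
  have key : ∀ {c1 c2 c3 : B}, HB QB c1 c2 c3 →
      Trace.tr ((rho F V).comp L.subtype) (HS ten L) (h.p5 a1 a2 a3 b1 b2 b3)
        (h.mR (polarBilin QA) (om QB c1 c2)) = h.mR (polarBilin QA) (om QB c1 c2) := by
    intro c1 c2 c3 hc
    rw [h.mR_eq, h.p5_indep ha hb ha hc]
    rw [tr5_eq_of_fix hF h hL hG hne ha hdA hdB hc hs0 hsw (mko_mem_Sk h (om_skew c1 c2))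
      (fun t => h.mko_fixed hL hG hc _ t) (fun t => by
        have e : ((rho F V).comp L.subtype) (h.flip.jB hL.flip hG ha t) =
            rho F V (h.flip.tm 1 (T QA a1 (t.toAdd • a2))) := rfl
        rw [e, h.flip_tm]
        exact h.rho_mko' (T_mem_O _ _) _),
      h.p5_mL' h3 ha hc (om_skew c1 c2)]
  have hbu := hb.symm.map (g := T QB b1 ((1 : F) • b2)) (T_mem_O _ _)
  obtain ⟨x, y, z, e⟩ := hb.skew_form h.two hω
  rw [← h.mR_eq, e]
  simp only [map_add, map_smul]
  rw [key hb, key hb.symm, key hbu]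

theorem tr5_id (hF : Nat.card F = 5) (h3 : (3 : F) ≠ 0) (h : TD Q QA QB ten)
    {L : Subgroup (V ≃ₗ[F] V)}
    [Finite L] (hL : Ov Q ten L) (hG : Good Q) (hne : ¬ E Q ≤ L) (ha : HB QA a1 a2 a3)
    (hdA : Module.finrank F A = 3) (hdB : Module.finrank F B = 3) (hb : HB QB b1 b2 b3)
    {s0 : V ≃ₗ[F] V} (hs0 : s0 ∈ L) (hsw : Sw ten s0) {M : V →ₗ[F] V →ₗ[F] F}
    (hMS : M ∈ Sk F V) (hM : h.p5 a1 a2 a3 b1 b2 b3 M = M) :
    Trace.tr ((rho F V).comp L.subtype) (HS ten L) (h.p5 a1 a2 a3 b1 b2 b3) M = M := by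
  have e := h.p5_eq (a1 := a1) (a2 := a2) (a3 := a3) (b1 := b1) (b2 := b2) (b3 := b3) M
  have hl := tr5_id_right hF h3 h.flip hL.flip hG hne hb hdB hdA ha hs0 hsw.flip
    (h.cB_skew (b1 := b1) (b2 := b2) (b3 := b3) hMS)
  rw [HS_flip, h.p5_flip, h.mko_flip] at hl
  have hr := tr5_id_right hF h3 h hL hG hne ha hdA hdB hb hs0 hsw
    (h.flip.cB_skew (b1 := a1) (b2 := a2) (b3 := a3) hMS)
  rw [hM] at e
  conv_lhs => rw [e]
  rw [map_smul, map_add, hl, hr]
  exact e.symm

/-- **q = 5.** -/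
theorem DS_of_five (hF : Nat.card F = 5) (h : TD Q QA QB ten) {L : Subgroup (V ≃ₗ[F] V)}
    (hL : Ov Q ten L) (hG : Good Q) (hne : ¬ E Q ≤ L) (ha : HB QA a1 a2 a3)
    (hdA : Module.finrank F A = 3) (hdB : Module.finrank F B = 3) (hb : HB QB b1 b2 b3)
    {s0 : V ≃ₗ[F] V} (hs0 : s0 ∈ L) (hsw : Sw ten s0) {g : V ≃ₗ[F] V} (hg : g ∈ L) :
    DS ten g := by
  have : FiniteDimensional F V := Module.finite_of_finrank_pos (by have := hG.dim; omega)
  have : Finite V := Module.finite_of_finite F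
  have : Finite (V ≃ₗ[F] V) := DFunLike.finite _
  have : Finite (V →ₗ[F] V →ₗ[F] F) := Module.finite_of_finite F
  have : Nontrivial A := Module.nontrivial_of_finrank_pos (R := F) (by omega)
  have : Nontrivial B := Module.nontrivial_of_finrank_pos (R := F) (by omega)
  have h5 : (5 : F) = 0 := by
    have hFt : Fintype F := Fintype.ofFinite F
    have := Nat.cast_card_eq_zero F
    rw [← Nat.card_eq_fintype_card, hF] at this
    exact_mod_cast this
  have h3 : (3 : F) ≠ 0 := by
    intro h3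
    apply h.two
    linear_combination h5 - h3
  obtain ⟨p, hp⟩ := CharP.exists F
  have hpp : p.Prime := CharP.char_is_prime F p
  have : Fact p.Prime := ⟨hpp⟩
  have hpa : ∀ t : Multiplicative F, t ^ p = 1 := by
    intro t
    apply Multiplicative.toAdd.injective
    rw [toAdd_pow, ← Nat.cast_smul_eq_nsmul F, CharP.cast_eq_zero, zero_smul]
    rfl
  have hpg : IsPGroup p (Multiplicative F × Multiplicative F) := by
    rintro ⟨t, t'⟩
    refine ⟨1, ?_⟩
    rw [pow_one]
    exact Prod.ext (hpa t) (hpa t')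
  -- the group of pairs
  let j : Multiplicative F × Multiplicative F →* L :=
    { toFun := fun t => h.flip.jB hL.flip hG ha t.1 * h.jB hL hG hb t.2
      map_one' := by
        show h.flip.jB hL.flip hG ha 1 * h.jB hL hG hb 1 = 1
        rw [map_one, map_one, mul_one]
      map_mul' := by
        rintro ⟨s, t⟩ ⟨s', t'⟩
        show h.flip.jB hL.flip hG ha (s * s') * h.jB hL hG hb (t * t') =
          (h.flip.jB hL.flip hG ha s * h.jB hL hG hb t) *
          (h.flip.jB hL.flip hG ha s' * h.jB hL hG hb t')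
        have hcomm : h.jB hL hG hb t * h.flip.jB hL.flip hG ha s' =
            h.flip.jB hL.flip hG ha s' * h.jB hL hG hb t := by
          apply Subtype.ext
          rw [Subgroup.coe_mul, Subgroup.coe_mul, h.jB_coe, h.flip.jB_coe, h.flip_tm, ← h.tm_mul,
            ← h.tm_mul, one_mul, mul_one, one_mul, mul_one]
        rw [map_mul, map_mul, mul_assoc, mul_assoc, ← mul_assoc (h.jB hL hG hb t), hcomm,
          mul_assoc] }
  have hjB : ∀ t, j (1, t) = h.jB hL hG hb t := by
    intro t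
    show h.flip.jB hL.flip hG ha 1 * h.jB hL hG hb t = _
    rw [map_one, one_mul]
  have hjA : ∀ s, j (s, 1) = h.flip.jB hL.flip hG ha s := by
    intro s
    show h.flip.jB hL.flip hG ha s * h.jB hL hG hb 1 = _
    rw [map_one, mul_one]
  set n := h.mko (polarBilin QA) (om QB b1 b2) with hn
  have hnS : n ∈ Sk F V := mko_mem_Sk h (om_skew b1 b2)
  have hn5 : h.p5 a1 a2 a3 b1 b2 b3 n = n := h.p5_mL' h3 ha hb (om_skew b1 b2)
  have h1 := Trace.green (F := F) (X := V →ₗ[F] V →ₗ[F] F)
    (ρ := (rho F V).comp L.subtype) (H := HS ten L) (π := h.p5 a1 a2 a3 b1 b2 b3)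
    (fun g hg => h.p5_comm ha hb (hL.leO g.2) hg) hpg j
    (fun d => Or.inl (Dec.mul (h.flip.dec_tm _ _).unflip (h.dec_tm _ _)))
    (fun M => (∀ t, ((rho F V).comp L.subtype) (h.jB hL hG hb t) M = M) ∧
      (∀ t, ((rho F V).comp L.subtype) (h.flip.jB hL.flip hG ha t) M = M))
    (fun M hM => ⟨fun t => by rw [← hjB]; exact hM _, fun s => by rw [← hjA]; exact hM _⟩)
    (Sk F V) (fun g x hx => rho_mem_Sk _ hx) (fun x hx => h.p5_mem_Sk hx)
    (fun M hM => h.p5_p5 h3 ha hb hM)
    (fun M hMS hM => tr5_eq_of_fix hF h hL hG hne ha hdA hdB hb hs0 hsw hMS hM.1 hM.2)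
    (fun M hMS hM => tr5_id hF h3 h hL hG hne ha hdA hdB hb hs0 hsw hMS hM)
    (⟨g, hg⟩ : L) hnS hn5
  set Y := ((rho F V).comp L.subtype) (⟨g, hg⟩ : L) n with hY
  have hYS : Y ∈ Sk F V := rho_mem_Sk _ hnS
  have hYe : Y = (3 : F)⁻¹ • (h.mko (cB ten QB b1 b2 b3 Y) (polarBilin QB) +
        h.mko (polarBilin QA) (cB ten.flip QA a1 a2 a3 Y)) := by
    rw [← h.p5_eq]
    exact h1.symm
  obtain ⟨s, hs⟩ := ha.exists_op ((3 : F)⁻¹ • cB ten QB b1 b2 b3 Y)
  obtain ⟨r, hr⟩ := hb.exists_op ((3 : F)⁻¹ • cB ten.flip QA a1 a2 a3 Y)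
  have hs0' : ∀ x, polar QA (s x) x = 0 := by
    intro x
    have e1 := h.cB_skew (b1 := b1) (b2 := b2) (b3 := b3) hYS x x
    have e2 : 2 * cB ten QB b1 b2 b3 Y x x = 0 := by linear_combination e1
    rw [hs, LinearMap.smul_apply, LinearMap.smul_apply, (mul_eq_zero.1 e2).resolve_left h.two,
      smul_zero]
  have hr0 : ∀ x, polar QB (r x) x = 0 := by
    intro x
    have e1 := h.flip.cB_skew (b1 := a1) (b2 := a2) (b3 := a3) hYS x x
    have e2 : 2 * cB ten.flip QA a1 a2 a3 Y x x = 0 := by linear_combination e1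
    rw [hr, LinearMap.smul_apply, LinearMap.smul_apply, (mul_eq_zero.1 e2).resolve_left h.two,
      smul_zero]
  -- the operator of `Y`
  set N := h.mB (nu QB b1 b2) with hN
  have hTpol : ∀ v w, polar Q (h.mA s v + h.mB r v) w = Y v w := by
    have : (polarBilin Q) ∘ₗ (h.mA s + h.mB r) = Y := by
      refine h.ext₂ fun a b x y => ?_
      conv_rhs => rw [hYe]
      rw [LinearMap.comp_apply, polarBilin_apply_apply, LinearMap.add_apply, h.mA_ten, h.mB_ten,
        polar_add_left, h.form, h.form, hs, hr]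
      simp only [LinearMap.smul_apply, LinearMap.add_apply, h.mko_ten, polarBilin_apply_apply,
        smul_eq_mul]
      ring
    intro v w
    rw [← this]
    rfl
  have hNpol : ∀ v w, polar Q (N v) w = n v w := by
    have : (polarBilin Q) ∘ₗ N = n := by
      refine h.ext₂ fun a b x y => ?_
      rw [LinearMap.comp_apply, polarBilin_apply_apply, hN, h.mB_ten, h.form, hn, h.mko_ten,
        nu, wd_apply, om_apply, polar_sub_left, polar_smul_left, polar_smul_left,
        polarBilin_apply_apply]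
      simp only [smul_eq_mul]
    intro v w
    rw [← this]
    rfl
  have hgO : g ∈ O Q := hL.leO hg
  have hT : ∀ v, g (N v) = h.mA s (g v) + h.mB r (g v) := by
    intro v
    rw [← sub_eq_zero]
    apply hG.nondeg
    intro w
    obtain ⟨w, rfl⟩ := g.surjective w
    rw [polar_sub_left, hTpol, polar_map hgO, hNpol]
    have : Y (g v) (g w) = n v w := by
      show n ((g⁻¹ : V ≃ₗ[F] V) (g v)) ((g⁻¹ : V ≃ₗ[F] V) (g w)) = n v w
      have e : ∀ v, (g⁻¹ : V ≃ₗ[F] V) (g v) = v := fun v => LinearEquiv.symm_apply_apply g v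
      rw [e, e]
    rw [this, sub_self]
  -- powers of `N`
  have hN1 : ∀ a, N (ten a b1) = 0 := by
    intro a
    rw [hN, h.mB_ten, nu, wd_apply, hb.p11, hb.p21, zero_smul, zero_smul, sub_zero, map_zero]
  have hN2 : ∀ a, N (ten a b2) = (-(2 * QB b2)) • ten a b1 := by
    intro a
    rw [hN, h.mB_ten, nu, wd_apply, hb.p12, hb.p22, zero_smul, zero_sub, map_neg, map_smul,
      neg_smul]
  have hN3 : ∀ a, N (ten a b3) = ten a b2 := by
    intro a
    rw [hN, h.mB_ten, nu, wd_apply, hb.p13, hb.p23, zero_smul, one_smul, sub_zero]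
  have hNNN : ∀ v, N (N (N v)) = 0 := by
    intro v
    conv_lhs => rw [h.decomp hb v]
    simp only [map_add, hN1, hN2, hN3, map_smul, LinearMap.smul_apply, smul_zero, zero_add,
      add_zero]
  have hcube : ∀ v, (h.mA s + h.mB r) ((h.mA s + h.mB r) ((h.mA s + h.mB r) v)) = 0 := by
    intro v
    obtain ⟨v, rfl⟩ := g.surjective v
    have hT' : ∀ v, (h.mA s + h.mB r) (g v) = g (N v) := fun v => (hT v).symm
    rw [hT', hT', hT', hNNN, map_zero]
  have hcube' : ∀ a b, ten (s (s (s a))) b + (3 : F) • ten (s (s a)) (r b) +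
      (3 : F) • ten (s a) (r (r b)) + ten a (r (r (r b))) = 0 := by
    intro a b
    have := hcube (ten a b)
    simp only [LinearMap.add_apply, map_add, h.mA_ten, h.mB_ten] at this
    rw [← this]
    module
  -- `s = 0` or `r = 0`
  have hrsk : ∀ y y', polar QB y' (r y) = - polar QB y (r y') := by
    intro y y'
    have e1 := hr0 (y + y')
    rw [map_add, polar_add_left, polar_add_right, polar_add_right, hr0, hr0, zero_add,
      add_zero] at e1
    rw [polar_comm QB y' (r y), polar_comm QB y (r y')]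
    linear_combination e1
  have hor : s = 0 ∨ r = 0 := by
    by_cases hr00 : r = 0
    · exact Or.inr hr00
    left
    obtain ⟨b, hb0⟩ : ∃ b, r b ≠ 0 := by
      by_contra hcon
      push Not at hcon
      exact hr00 (LinearMap.ext hcon)
    obtain ⟨b', hb'⟩ := h.nB.exists_polar_eq hb0 1
    rw [polar_comm] at hb'
    -- the equation paired with `b'`, and its mirror
    have e1 : ∀ a, polar QB b' b • s (s (s a)) + (3 : F) • s (s a) +
        ((3 : F) * polar QB b' (r (r b))) • s a + polar QB b' (r (r (r b))) • a = 0 := by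
      intro a
      have := congrArg (h.pb b') (hcube' a b)
      simp only [map_add, map_smul, h.pb_ten, map_zero, hb', one_smul] at this
      rw [← this]
      module
    have e2 : ∀ a, polar QB b' b • s (s (s a)) + (-(3 : F)) • s (s a) +
        ((3 : F) * polar QB b' (r (r b))) • s a + (-polar QB b' (r (r (r b)))) • a = 0 := by
      intro a
      have := congrArg (h.pb b) (hcube' a b')
      simp only [map_add, map_smul, h.pb_ten, map_zero] at this
      have f1 : polar QB b b' = polar QB b' b := polar_comm _ _ _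
      have f2 : polar QB b (r b') = -1 := by
        have := hrsk b b'
        rw [hb'] at this
        linear_combination this
      have f3 : polar QB b (r (r b')) = polar QB b' (r (r b)) := by
        rw [hrsk (r b') b, polar_comm QB (r b') (r b), hrsk b' (r b), neg_neg]
      have f4 : polar QB b (r (r (r b'))) = - polar QB b' (r (r (r b))) := by
        rw [hrsk (r (r b')) b, polar_comm QB (r (r b')) (r b), hrsk (r b') (r b),
          polar_comm QB (r b') (r (r b)), hrsk b' (r (r b)), neg_neg]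
      rw [f1, f2, f3, f4] at this
      rw [← this]
      module
    have hsc : ∀ a, s (s a) = ((2 * 3 : F)⁻¹ * (-(2 * polar QB b' (r (r (r b)))))) • a := by
      intro a
      have h6 : (2 * 3 : F) ≠ 0 := mul_ne_zero h.two h3
      have e3 : (2 * 3 : F) • (s (s a)) = (-(2 * polar QB b' (r (r (r b))))) • a := by
        have := (e1 a).trans (e2 a).symm
        rw [← sub_eq_zero] at this ⊢
        rw [← this]
        module
      have e4 : s (s a) = (2 * 3 : F)⁻¹ • ((2 * 3 : F) • s (s a)) := by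
        rw [smul_smul, inv_mul_cancel₀ h6, one_smul]
      rw [e4, e3, smul_smul]
    exact ha.skew_scalar h.two hs0' hsc
  -- the conclusion
  have hδ : (2 * QB b2) ≠ 0 := mul_ne_zero h.two hb.q2
  have hgen : ∀ x, g (ten x b1) = (-(2 * QB b2)⁻¹) • g (N (N (ten x b3))) := by
    intro x
    rw [hN3, hN2, map_smul, smul_smul, neg_mul_neg, inv_mul_cancel₀ hδ, one_smul]
  refine DS_of_pure (by omega) h hL hG hne ha hdA hdB hb hs0 hsw hg fun x => ?_
  rw [hgen]
  rcases hor with hs00 | hr00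
  · have hmA : h.mA s = 0 := by
      refine h.ext fun a b => ?_
      rw [h.mA_ten, hs00]
      simp
    have hT1 : ∀ v, g (N v) = h.mB r (g v) := by
      intro v
      rw [hT, hmA, LinearMap.zero_apply, zero_add]
    have hr3 : ∀ y, r (r (r y)) = 0 := by
      intro y
      have e1 := hcube' a2 y
      have ha20 : a2 ≠ 0 := by
        intro h0
        apply ha.q2
        rw [h0]
        exact QuadraticMap.map_zero QA
      rw [hs00] at e1
      simp only [LinearMap.zero_apply, map_zero, smul_zero, zero_add] at e1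
      exact h.flip.ten_inj ha20 (x := r (r (r y))) (y := 0) (by
        rw [map_zero, LinearMap.zero_apply]
        exact e1)
    obtain ⟨u, hu⟩ := hb.skew_sq h.two hr0 hr3
    obtain ⟨c1, hc1⟩ := hu b1
    obtain ⟨c2, hc2⟩ := hu b2
    obtain ⟨c3, hc3⟩ := hu b3
    rw [hT1, hT1]
    set w := g (ten x b3) with hw
    refine ⟨(-(2 * QB b2)⁻¹) • (c1 • h.pb b3 w + c2 • ((2 * QB b2)⁻¹ • h.pb b2 w) +
      c3 • h.pb b1 w), u, ?_⟩
    conv_lhs => rw [h.decomp hb w]
    simp only [map_add, h.mB_ten, hc1, hc2, hc3, map_smul, LinearMap.add_apply,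
      LinearMap.smul_apply]
    module
  · have hmB : h.mB r = 0 := by
      refine h.ext fun a b => ?_
      rw [h.mB_ten, hr00]
      simp
    have hT1 : ∀ v, g (N v) = h.mA s (g v) := by
      intro v
      rw [hT, hmB, LinearMap.zero_apply, add_zero]
    have hs3 : ∀ y, s (s (s y)) = 0 := by
      intro y
      have e1 := hcube' y b2
      have hb20 : b2 ≠ 0 := by
        intro h0
        apply hb.q2
        rw [h0]
        exact QuadraticMap.map_zero QB
      rw [hr00] at e1
      simp only [LinearMap.zero_apply, map_zero, smul_zero, add_zero] at e1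
      exact h.ten_inj hb20 (x := s (s (s y))) (y := 0) (by
        rw [map_zero, LinearMap.zero_apply]
        exact e1)
    obtain ⟨u, hu⟩ := ha.skew_sq h.two hs0' hs3
    rw [hT1, hT1]
    set w := g (ten x b3) with hw
    obtain ⟨c1, hc1⟩ := hu (h.pb b3 w)
    obtain ⟨c2, hc2⟩ := hu (h.pb b2 w)
    obtain ⟨c3, hc3⟩ := hu (h.pb b1 w)
    refine ⟨u, (-(2 * QB b2)⁻¹) • (c1 • b1 + ((2 * QB b2)⁻¹ * c2) • b2 + c3 • b3), ?_⟩
    conv_lhs => rw [h.decomp hb w]
    simp only [map_add, h.mA_ten, hc1, hc2, hc3, map_smul, LinearMap.add_apply,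
      LinearMap.smul_apply, smul_smul]

end main

end Cfsg.Agent.H922.Ten
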