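import Mathlib
import Cfsg.Agent.H922.TenUnip

/-!
Tensor decompositions `V = A ⊗ B`, `dim A = dim B = 3`: fusion. If `L` is a proper overgroup,
`d = 1 ⊗ T b1 (c b2) ≠ 1`, `g ∈ L` and `g⁻¹ d g` preserves the decomposition, then so does `g`.
-/

set_option autoImplicit false
set_option linter.unusedSectionVars false

namespace Cfsg.Agent.H922.Ten

open QuadraticMap Cfsg.Agent.LieClassical.OrthCore Cfsg.Agent.LieClassical.OrthTrans
  Cfsg.Agent.LieClassical.OrthSimple Cfsg.Agent.ClassicalGeometry.OrthAutBasic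
  Cfsg.Agent.H887.SiegelMethod

variable {F V A B : Type*} [Field F] [AddCommGroup V] [Module F V] [AddCommGroup A] [Module F A]
  [AddCommGroup B] [Module F B] {Q : QuadraticForm F V} {QA : QuadraticForm F A}
  {QB : QuadraticForm F B} {ten : A →ₗ[F] B →ₗ[F] V}

variable {a1 a2 a3 : A} {b1 b2 b3 : B}

/-- `g` preserves the decomposition. -/
def DS (ten : A →ₗ[F] B →ₗ[F] V) (g : V ≃ₗ[F] V) : Prop := Dec ten g ∨ Sw ten g

theorem dec_one : Dec ten (1 : V ≃ₗ[F] V) := ⟨1, 1, fun _ _ => rfl⟩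

theorem DS.mul {g g' : V ≃ₗ[F] V} (hg : DS ten g) (hg' : DS ten g') : DS ten (g * g') := by
  rcases hg with hg | hg <;> rcases hg' with hg' | hg'
  · exact Or.inl (hg.mul hg')
  · exact Or.inr (hg.mul_sw hg')
  · exact Or.inr (hg.mul_dec hg')
  · exact Or.inl (hg.mul hg')

theorem DS.inv {g : V ≃ₗ[F] V} (hg : DS ten g) : DS ten g⁻¹ := by
  rcases hg with hg | hg
  · exact Or.inl hg.inv
  · exact Or.inr hg.inv

theorem DS.pow {g : V ≃ₗ[F] V} (hg : DS ten g) (n : ℕ) : DS ten (g ^ n) := by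
  induction n with
  | zero => exact Or.inl dec_one
  | succ n ih => rw [pow_succ]; exact ih.mul hg

theorem DS.mul_self {g : V ≃ₗ[F] V} (hg : DS ten g) : Dec ten (g * g) := by
  rcases hg with hg | hg
  · exact hg.mul hg
  · exact hg.mul hg

theorem DS.dec_of_pow {g : V ≃ₗ[F] V} (hg : DS ten g) {p : ℕ} (hp : Odd p) (h : g ^ p = 1) :
    Dec ten g := by
  obtain ⟨k, rfl⟩ := hp
  have e : g = g ^ (k + 1) * g ^ (k + 1) := by
    rw [← pow_add]
    have : k + 1 + (k + 1) = (2 * k + 1) + 1 := by ring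
    rw [this, pow_succ, h, one_mul]
  rw [e]
  exact (hg.pow (k + 1)).mul_self

/-- `f ⊗ 1`. -/
noncomputable def TD.mA (h : TD Q QA QB ten) (f : A →ₗ[F] A) : V →ₗ[F] V := h.tl (ten ∘ₗ f)

theorem TD.mA_ten (h : TD Q QA QB ten) (f : A →ₗ[F] A) (a : A) (b : B) :
    h.mA f (ten a b) = ten (f a) b := by
  rw [TD.mA, h.tl_ten]
  rfl

/-- `1 ⊗ f`. -/
noncomputable def TD.mB (h : TD Q QA QB ten) (f : B →ₗ[F] B) : V →ₗ[F] V :=
  h.tl ((LinearMap.lcomp F V f) ∘ₗ ten)

theorem TD.mB_ten (h : TD Q QA QB ten) (f : B →ₗ[F] B) (a : A) (b : B) :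
    h.mB f (ten a b) = ten a (f b) := by
  rw [TD.mB, h.tl_ten]
  rfl

/-- The nilpotent operator of the Siegel group. -/
def nu (QB : QuadraticForm F B) (b1 b2 : B) : B →ₗ[F] B := wd QB b1 b2

/-- The quadratic part. -/
def nu2 (QB : QuadraticForm F B) (b1 b2 : B) : B →ₗ[F] B :=
  (-(QB b2)) • (polarBilin QB b1).smulRight b1

theorem T_poly (hb : HB QB b1 b2 b3) (r : F) (y : B) :
    T QB b1 (r • b2) y = y + r • nu QB b1 b2 y + r ^ 2 • nu2 QB b1 b2 y := by
  rw [T_apply hb.hyp.left (by rw [polar_smul_right, hb.p12, smul_zero]), nu, nu2, wd_apply,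
    QuadraticMap.map_smul, polar_smul_left]
  simp only [LinearMap.smul_apply, LinearMap.smulRight_apply, polarBilin_apply_apply, smul_eq_mul]
  module

theorem TD.tmA_poly (h : TD Q QA QB ten) (ha : HB QA a1 a2 a3) (r : F) (v : V) :
    h.tm (T QA a1 (r • a2)) 1 v = v + r • h.mA (nu QA a1 a2) v + r ^ 2 • h.mA (nu2 QA a1 a2) v := by
  have : (h.tm (T QA a1 (r • a2)) 1).toLinearMap =
      LinearMap.id + r • h.mA (nu QA a1 a2) + r ^ 2 • h.mA (nu2 QA a1 a2) := by
    refine h.ext fun a b => ?_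
    simp only [LinearEquiv.coe_coe, LinearMap.add_apply, LinearMap.smul_apply, LinearMap.id_apply]
    rw [h.tm_ten, h.mA_ten, h.mA_ten, T_poly ha]
    simp only [map_add, map_smul, LinearMap.add_apply, LinearMap.smul_apply]
    rfl
  exact LinearMap.congr_fun this v

theorem TD.tmB_poly (h : TD Q QA QB ten) (hb : HB QB b1 b2 b3) (r : F) (v : V) :
    h.tm 1 (T QB b1 (r • b2)) v = v + r • h.mB (nu QB b1 b2) v + r ^ 2 • h.mB (nu2 QB b1 b2) v := by
  have : (h.tm 1 (T QB b1 (r • b2))).toLinearMap =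
      LinearMap.id + r • h.mB (nu QB b1 b2) + r ^ 2 • h.mB (nu2 QB b1 b2) := by
    refine h.ext fun a b => ?_
    simp only [LinearEquiv.coe_coe, LinearMap.add_apply, LinearMap.smul_apply, LinearMap.id_apply]
    rw [h.tm_ten, h.mB_ten, h.mB_ten, T_poly hb]
    simp only [map_add, map_smul]
    rfl
  exact LinearMap.congr_fun this v

/-- A vector fixed by an elementary abelian group of unipotent elements. -/
theorem exists_common_fix [Finite F] [Finite A] {p : ℕ} [Fact p.Prime] [CharP F p] [Nontrivial A]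
    {α : F → (A ≃ₗ[F] A)} (hadd : ∀ r r', α (r + r') = α r * α r') (hp : ∀ r, α r ^ p = 1) :
    ∃ a, a ≠ 0 ∧ ∀ r, α r a = a := by
  have h0 : α 0 = 1 := by
    have := hadd 0 0
    rw [add_zero] at this
    exact (mul_eq_left.1 this.symm)
  let Γ : Subgroup (A ≃ₗ[F] A) :=
    { carrier := Set.range α
      mul_mem' := by
        rintro _ _ ⟨r, rfl⟩ ⟨r', rfl⟩
        exact ⟨r + r', hadd r r'⟩
      one_mem' := ⟨0, h0⟩
      inv_mem' := by
        rintro _ ⟨r, rfl⟩
        refine ⟨-r, ?_⟩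
        rw [eq_inv_iff_mul_eq_one, ← hadd, neg_add_cancel, h0] }
  have hΓ : IsPGroup p Γ := by
    rintro ⟨_, ⟨r, rfl⟩⟩
    exact ⟨1, by rw [pow_one]; exact Subtype.ext (hp r)⟩
  have hpA : p ∣ Nat.card A := by
    have : Fintype A := Fintype.ofFinite A
    obtain ⟨a, ha⟩ := exists_ne (0 : A)
    have hpa : addOrderOf a = p := by
      have h1 : p • a = 0 := by
        rw [← Nat.cast_smul_eq_nsmul F, CharP.cast_eq_zero, zero_smul]
      exact addOrderOf_eq_prime h1 ha
    rw [← hpa]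
    exact addOrderOf_dvd_natCard a
  have hfix0 : (0 : A) ∈ MulAction.fixedPoints Γ A := fun γ => map_zero (γ : A ≃ₗ[F] A)
  obtain ⟨a, ha, hne⟩ := hΓ.exists_fixed_point_of_prime_dvd_card_of_fixed_point A hpA hfix0
  exact ⟨a, hne.symm, fun r => ha ⟨α r, r, rfl⟩⟩

/-- One-parameter groups in `O(A) × U_b`. -/
theorem lin_or [Finite F] (hF : 5 ≤ Nat.card F) (h : TD Q QA QB ten) [Finite A] [Nontrivial A]
    {p : ℕ} [Fact p.Prime] [CharP F p] (hb : HB QB b1 b2 b3) {z : F → (V ≃ₗ[F] V)}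
    {α : F → (A ≃ₗ[F] A)} {φ : F → F} {X X2 : V →ₗ[F] V}
    (hz : ∀ r v, z r v = v + r • X v + r ^ 2 • X2 v)
    (hzt : ∀ r a b, z r (ten a b) = ten (α r a) (T QB b1 (φ r • b2) b))
    (hadd : ∀ r r', α (r + r') = α r * α r') (hφ : ∀ r r', φ (r + r') = φ r + φ r')
    (hp : ∀ r, α r ^ p = 1) :
    ∃ f : F, (∀ r, φ r = f * r) ∧ (f ≠ 0 → ∀ r, α r = 1) := by
  obtain ⟨a0, ha0, hfix⟩ := exists_common_fix hadd hp
  have hδ : (2 * QB b2) ≠ 0 := mul_ne_zero h.two hb.q2
  -- `φ` is linear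
  obtain ⟨a', ha'⟩ := h.nA.exists_polar_eq ha0 1
  have hφ0 : φ 0 = 0 := by
    have := hφ 0 0
    rw [add_zero] at this
    linear_combination -this
  have hφneg : ∀ r, φ (-r) = - φ r := by
    intro r
    have := hφ r (-r)
    rw [add_neg_cancel, hφ0] at this
    linear_combination -this
  have h2 : ∀ r, (2 * QB b2) * φ r = r * polar QA (h.pb b2 (X (ten a0 b3))) a' +
      r ^ 2 * polar QA (h.pb b2 (X2 (ten a0 b3))) a' := by
    intro r
    have e := congrArg (h.pb b2) ((hzt r a0 b3).symm.trans (hz r (ten a0 b3)))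
    rw [T_HB_three hb, h.pb_ten, polar_sub_right, polar_add_right, polar_smul_right,
      polar_smul_right, hb.p23, hb.p22, hb.p21, hfix, map_add, map_add, map_smul, map_smul,
      h.pb_ten, hb.p23] at e
    have e2 := congrArg (fun x => polar QA x a') e
    simp only [polar_add_left, polar_smul_left, smul_eq_mul, ha', zero_mul, zero_add, mul_zero,
      sub_zero, mul_one] at e2
    linear_combination e2
  set u1 := polar QA (h.pb b2 (X (ten a0 b3))) a' with hu1
  set u2 := polar QA (h.pb b2 (X2 (ten a0 b3))) a' with hu2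
  have hu20 : u2 = 0 := by
    have e1 := h2 1
    have e2 := h2 (-1)
    rw [hφneg] at e2
    have : 2 * u2 = 0 := by linear_combination -e1 - e2
    exact (mul_eq_zero.1 this).resolve_left h.two
  refine ⟨(2 * QB b2)⁻¹ * u1, fun r => ?_, ?_⟩
  · have e := h2 r
    rw [hu20, mul_zero, add_zero] at e
    have : φ r = (2 * QB b2)⁻¹ * ((2 * QB b2) * φ r) := by
      rw [← mul_assoc, inv_mul_cancel₀ hδ, one_mul]
    rw [this, e]
    ring
  · intro hf r
    set f := (2 * QB b2)⁻¹ * u1 with hfdef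
    have hφr : ∀ r, φ r = f * r := by
      intro r
      have e := h2 r
      rw [hu20, mul_zero, add_zero] at e
      have : φ r = (2 * QB b2)⁻¹ * ((2 * QB b2) * φ r) := by
        rw [← mul_assoc, inv_mul_cancel₀ hδ, one_mul]
      rw [this, e, hfdef]
      ring
    -- `α r` is polynomial
    have hα : ∀ r a, α r a = a + r • h.pb b1 (X (ten a b3)) + r ^ 2 • h.pb b1 (X2 (ten a b3)) := by
      intro r a
      have e := congrArg (h.pb b1) ((hzt r a b3).symm.trans (hz r (ten a b3)))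
      rw [T_HB_three hb, h.pb_ten, polar_sub_right, polar_add_right, polar_smul_right,
        polar_smul_right, hb.p13, hb.p12, hb.p11, map_add, map_add, map_smul, map_smul,
        h.pb_ten, hb.p13] at e
      simpa using e
    have hα3 : ∀ r a, (-((f * r) ^ 2 * QB b2)) • α r a = r • h.pb b3 (X (ten a b3)) +
        r ^ 2 • h.pb b3 (X2 (ten a b3)) := by
      intro r a
      have e := congrArg (h.pb b3) ((hzt r a b3).symm.trans (hz r (ten a b3)))
      rw [T_HB_three hb, h.pb_ten, polar_sub_right, polar_add_right, polar_smul_right,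
        polar_smul_right, hb.p33, hb.p32, hb.p31, map_add, map_add, map_smul, map_smul,
        h.pb_ten, hb.p33, hφr] at e
      simpa using e
    ext a
    have hX : h.pb b1 (X (ten a b3)) = 0 ∧ h.pb b1 (X2 (ten a b3)) = 0 := by
      have key : ∀ y, polar QA (h.pb b1 (X (ten a b3))) y = 0 ∧
          polar QA (h.pb b1 (X2 (ten a b3))) y = 0 := by
        intro y
        have hpoly : ∀ r : F, 0 + (polar QA (h.pb b3 (X (ten a b3))) y) * r +
            (polar QA (h.pb b3 (X2 (ten a b3))) y + f ^ 2 * QB b2 * polar QA a y) * r ^ 2 +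
            (f ^ 2 * QB b2 * polar QA (h.pb b1 (X (ten a b3))) y) * r ^ 3 +
            (f ^ 2 * QB b2 * polar QA (h.pb b1 (X2 (ten a b3))) y) * r ^ 4 = 0 := by
          intro r
          have e := congrArg (fun x => polar QA x y) (hα3 r a)
          rw [hα] at e
          simp only [polar_add_left, polar_smul_left, smul_eq_mul] at e
          linear_combination -e
        obtain ⟨-, -, -, k3, k4⟩ := coeff_zero hF hpoly
        have hne : f ^ 2 * QB b2 ≠ 0 := mul_ne_zero (pow_ne_zero 2 hf) hb.q2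
        exact ⟨(mul_eq_zero.1 k3).resolve_left hne, (mul_eq_zero.1 k4).resolve_left hne⟩
      exact ⟨h.nA _ fun y => (key y).1, h.nA _ fun y => (key y).2⟩
    rw [hα, hX.1, hX.2]
    simp

end Cfsg.Agent.H922.Ten
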