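import Mathlib
import Cfsg.Agent.H922.TenFus

/-!
Tensor decompositions `V = A ⊗ B`, `dim A = dim B = 3`: fusion, main theorem.
-/

set_option autoImplicit false
set_option linter.unusedSectionVars false

namespace Cfsg.Agent.H922.Ten

open QuadraticMap Cfsg.Agent.LieClassical.OrthCore Cfsg.Agent.LieClassical.OrthTrans
  Cfsg.Agent.LieClassical.OrthSimple Cfsg.Agent.ClassicalGeometry.OrthAutBasic
  Cfsg.Agent.H887.SiegelMethod

variable {F V A B : Type*} [Field F] [AddCommGroup V] [Module F V] [AddCommGroup A] [Module F A]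
  [AddCommGroup B] [Module F B] {Q : QuadraticForm F V} {QA : QuadraticForm F A}
  {QB : QuadraticForm F B} {ten : A →ₗ[F] B →ₗ[F] V}

variable {a1 a2 a3 : A} {b1 b2 b3 : B}

/-- Transitivity of the decomposable elements on the spaces `A ⊗ b`. -/
theorem exists_dec_map (h : TD Q QA QB ten) {L : Subgroup (V ≃ₗ[F] V)}
    (hL : Ov Q ten L) (hG : Good Q) (hb : HB QB b1 b2 b3) {b' : B} (hb' : QB b' = 0)
    (h0 : b' ≠ 0) : ∃ k ∈ L, Dec ten k ∧ ∀ x, ∃ y, k (ten x b1) = ten y b' := by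
  refine hb.sing_induction (P := fun b' => ∃ k ∈ L, Dec ten k ∧ ∀ x, ∃ y, k (ten x b1) = ten y b')
    ⟨1, L.one_mem, dec_one, fun x => ⟨x, rfl⟩⟩ ?_ ?_ b' hb' h0
  · rintro b x w _ ⟨k, hk, hkd, hkb⟩
    refine ⟨h.tm 1 (T QB x w) * k, L.mul_mem (hL.tB h hG x w) hk, (h.dec_tm _ _).mul hkd,
      fun y => ?_⟩
    obtain ⟨z, hz⟩ := hkb y
    refine ⟨z, ?_⟩
    rw [LinearEquiv.mul_apply, hz, h.tm_ten]
    rfl
  · rintro b c hc ⟨k, hk, hkd, hkb⟩
    refine ⟨k, hk, hkd, fun y => ?_⟩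
    obtain ⟨z, hz⟩ := hkb y
    refine ⟨c⁻¹ • z, ?_⟩
    rw [hz, map_smul, map_smul, LinearMap.smul_apply, smul_smul, mul_inv_cancel₀ hc, one_smul]

/-- If `g` maps some `A ⊗ b'` into `A ⊗ b1`, then `g` is decomposable. -/
theorem dec_of_map [Finite F] [FiniteDimensional F A] (hF : 5 ≤ Nat.card F)
    (h : TD Q QA QB ten) {L : Subgroup (V ≃ₗ[F] V)}
    (hL : Ov Q ten L) (hG : Good Q) (hne : ¬ E Q ≤ L) (ha : HB QA a1 a2 a3)
    (hd : Module.finrank F A = 3) (hb : HB QB b1 b2 b3) {g : V ≃ₗ[F] V}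
    (hg : g ∈ L) {b' : B} (h0 : b' ≠ 0) (h1 : ∀ x, ∃ y, g (ten x b') = ten y b1) : Dec ten g := by
  have hgO := hL.leO hg
  have hb' : QB b' = 0 := by
    obtain ⟨y, hy⟩ := h1 a2
    have e : Q (g (ten a2 b')) = 0 := by rw [hy]; exact h.Q_ten_zero _ hb.hyp.left
    rw [mem_O.1 hgO, h.Q_ten] at e
    exact (mul_eq_zero.1 e).resolve_left (mul_ne_zero h.two ha.q2)
  obtain ⟨k, hk, hkd, hkb⟩ := exists_dec_map h hL hG hb hb' h0
  have hdec : Dec ten (g * k) := by
    refine dec_of_stab hF h hL hG hne ha hd hb (L.mul_mem hg hk) fun x => ?_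
    obtain ⟨y, hy⟩ := hkb x
    obtain ⟨z, hz⟩ := h1 y
    exact ⟨z, by rw [LinearEquiv.mul_apply, hy, hz]⟩
  have e : g = g * k * k⁻¹ := by group
  rw [e]
  exact hdec.mul hkd.inv

/-- If `g` maps some `a' ⊗ B` into `A ⊗ b1`, then `g` swaps the factors. -/
theorem sw_of_map [Finite F] [FiniteDimensional F A] (hF : 5 ≤ Nat.card F)
    (h : TD Q QA QB ten) {L : Subgroup (V ≃ₗ[F] V)}
    (hL : Ov Q ten L) (hG : Good Q) (hne : ¬ E Q ≤ L) (ha : HB QA a1 a2 a3)
    (hd : Module.finrank F A = 3) (hb : HB QB b1 b2 b3) {s0 : V ≃ₗ[F] V} (hs0 : s0 ∈ L)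
    (hsw : Sw ten s0) {g : V ≃ₗ[F] V}
    (hg : g ∈ L) {a' : A} (h0 : a' ≠ 0) (h1 : ∀ x, ∃ y, g (ten a' x) = ten y b1) : Sw ten g := by
  obtain ⟨σ, τ, hστ⟩ := hsw
  have hdec : Dec ten (g * s0⁻¹) := by
    refine dec_of_map hF h hL hG hne ha hd hb (L.mul_mem hg (L.inv_mem hs0)) (b' := τ a')
      (fun h => h0 ((LinearEquiv.map_eq_zero_iff _).1 h)) fun x => ?_
    obtain ⟨z, hz⟩ := h1 (σ.symm x)
    refine ⟨z, ?_⟩
    rw [LinearEquiv.mul_apply, ← hz]
    congr 1
    have e := hστ a' (σ.symm x)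
    rw [LinearEquiv.apply_symm_apply] at e
    rw [← e]
    exact LinearEquiv.symm_apply_apply s0 _
  have e : g = g * s0⁻¹ * s0 := by group
  rw [e]
  exact hdec.mul_sw ⟨σ, τ, hστ⟩

theorem TD.nmd (h : TD Q QA QB ten) (hb : HB QB b1 b2 b3) (c : F) (v : V) :
    nm (h.tm 1 (T QB b1 (c • b2))) (nm (h.tm 1 (T QB b1 (c • b2))) v) =
      ten ((-(c ^ 2 * (2 * QB b2))) • h.pb b1 v) b1 := by
  have hR := RTy_u h hb c
  set d := h.tm 1 (T QB b1 (c • b2)) with hd
  have e1 : ∀ x, nm d (ten x b1) = 0 := by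
    intro x
    rw [nm_apply, hR.one, sub_self]
  have e2 : ∀ x, nm d (ten x b2) = ten ((-(c * (2 * QB b2))) • x) b1 := by
    intro x
    rw [nm_apply, hR.two, add_sub_cancel_left]
    rfl
  have e3 : ∀ x, nm d (ten x b3) = ten (c • x) b2 + ten ((-(c ^ 2 * QB b2)) • x) b1 := by
    intro x
    rw [nm_apply, hR.three, add_assoc, add_sub_cancel_left]
    rfl
  conv_lhs => rw [h.decomp hb v]
  simp only [map_add, e1, e2, e3, map_zero, zero_add, add_zero, smul_smul]
  congr 3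
  ring

theorem T_pow_char {p : ℕ} [CharP F p] (u w : B) : (T QB u w) ^ p = 1 := by
  by_cases huw : QB u = 0 ∧ polar QB u w = 0
  · rw [T_pow huw.1 huw.2, ← Nat.cast_smul_eq_nsmul F, CharP.cast_eq_zero, zero_smul,
      T_zero_right]
  · rw [T_eq_one huw, one_pow]

/-- **Fusion.** -/
theorem fusion [Finite F] [FiniteDimensional F A] [FiniteDimensional F B] (hF : 5 ≤ Nat.card F)
    (h : TD Q QA QB ten) {L : Subgroup (V ≃ₗ[F] V)}
    (hL : Ov Q ten L) (hG : Good Q) (hne : ¬ E Q ≤ L) (ha : HB QA a1 a2 a3)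
    (hdA : Module.finrank F A = 3) (hdB : Module.finrank F B = 3) (hb : HB QB b1 b2 b3)
    {s0 : V ≃ₗ[F] V} (hs0 : s0 ∈ L) (hsw : Sw ten s0) {c : F} (hc : c ≠ 0) {g x : V ≃ₗ[F] V}
    (hg : g ∈ L) (hxL : x ∈ L) (hgx : g * x = h.tm 1 (T QB b1 (c • b2)) * g) (hx : DS ten x) :
    DS ten g := by
  have : Finite A := Module.finite_of_finite F
  have : Finite B := Module.finite_of_finite F
  have : Nontrivial A := Module.nontrivial_of_finrank_pos (R := F) (by omega)
  have : Nontrivial B := Module.nontrivial_of_finrank_pos (R := F) (by omega)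
  obtain ⟨p, hp⟩ := CharP.exists F
  have hpp : p.Prime := CharP.char_is_prime F p
  have : Fact p.Prime := ⟨hpp⟩
  have hp2 : p ≠ 2 := by
    rintro rfl
    exact h.two (by exact_mod_cast CharP.cast_eq_zero F 2)
  have hodd : Odd p := hpp.odd_of_ne_two hp2
  have hδ : (2 * QB b2) ≠ 0 := mul_ne_zero h.two hb.q2
  set d := h.tm 1 (T QB b1 (c • b2)) with hd
  have hdL : d ∈ L := hL.tB h hG b1 _
  -- orders
  have htmpow : ∀ (α : A ≃ₗ[F] A) (β : B ≃ₗ[F] B) (n : ℕ), (h.tm α β) ^ n = h.tm (α ^ n) (β ^ n) := by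
    intro α β n
    induction n with
    | zero => rw [pow_zero, pow_zero, pow_zero, h.tm_one]
    | succ n ih => rw [pow_succ, pow_succ, pow_succ, h.tm_mul, ih]
  have hdp : d ^ p = 1 := by
    rw [hd, htmpow, one_pow, T_pow_char, h.tm_one]
  have hx' : x = g⁻¹ * d * g := by
    rw [mul_assoc, ← hgx]; group
  have hxp : x ^ p = 1 := by
    have : x = g⁻¹ * d * (g⁻¹)⁻¹ := by rw [inv_inv]; exact hx'
    rw [this, conj_pow, hdp]
    group
  have hxd : Dec ten x := hx.dec_of_pow hodd hxp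
  have hgO := hL.leO hg
  have hxO := hL.leO hxL
  obtain ⟨α, β, hαO, hβO, hαp, hβp, hxαβ⟩ := dec_unip h hxO hxp hxd
  have hgxv : ∀ v, g (x v) = d (g v) := by
    intro v
    rw [← LinearEquiv.mul_apply, hgx, LinearEquiv.mul_apply]
  have hnm : ∀ v, g (nm x v) = nm d (g v) := by
    intro v
    rw [nm_apply, nm_apply, map_sub, hgxv]
  have hnm2 : ∀ v, g (nm x (nm x v)) = ten ((-(c ^ 2 * (2 * QB b2))) • h.pb b1 (g v)) b1 := by
    intro v
    rw [hnm, hnm, hd, h.nmd hb]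
  have hne0 : (-(c ^ 2 * (2 * QB b2))) ≠ 0 := neg_ne_zero.2 (mul_ne_zero (pow_ne_zero 2 hc) hδ)
  -- some square of `nm x` is not zero
  have hex : ∃ a b, nm x (nm x (ten a b)) ≠ 0 := by
    by_contra hcon
    push Not at hcon
    have h1 : nm x ∘ₗ nm x = 0 := h.ext fun a b => hcon a b
    have h2 := hnm2 (g⁻¹ (ten a2 b3))
    have h3 : nm x (nm x (g⁻¹ (ten a2 b3))) = 0 := LinearMap.congr_fun h1 _
    have h4 : g (g⁻¹ (ten a2 b3)) = ten a2 b3 := LinearEquiv.apply_symm_apply g _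
    rw [h3, map_zero, h4, h.pb_ten, hb.p13, one_smul] at h2
    have h5 : ten 0 b1 = ten ((-(c ^ 2 * (2 * QB b2))) • a2) b1 := by
      rw [map_zero]
      exact h2
    have h6 := h.ten_inj hb.hyp.left_ne h5
    have h7 := (smul_eq_zero.1 h6.symm).resolve_left hne0
    apply ha.q2
    rw [h7]
    exact QuadraticMap.map_zero QA
  by_cases hα1 : α = 1
  · -- `x = 1 ⊗ β`
    left
    have e1 : ∀ a b, nm x (ten a b) = ten a (β b - b) := by
      intro a b
      rw [nm_apply, hxαβ, hα1, map_sub]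
      rfl
    obtain ⟨a, b, hab⟩ := hex
    rw [e1, e1] at hab
    set b' := β (β b - b) - (β b - b) with hb'
    have hb'0 : b' ≠ 0 := by
      rintro h0
      rw [h0, map_zero] at hab
      exact hab rfl
    refine dec_of_map hF h hL hG hne ha hdA hb hg hb'0 fun y => ?_
    have := hnm2 (ten y b)
    rw [e1, e1] at this
    exact ⟨_, this⟩
  by_cases hβ1 : β = 1
  · -- `x = α ⊗ 1`
    right
    have e1 : ∀ a b, nm x (ten a b) = ten (α a - a) b := by
      intro a b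
      rw [nm_apply, hxαβ, hβ1, map_sub, LinearMap.sub_apply]
      rfl
    obtain ⟨a, b, hab⟩ := hex
    rw [e1, e1] at hab
    set a' := α (α a - a) - (α a - a) with ha'
    have ha'0 : a' ≠ 0 := by
      rintro h0
      rw [h0, map_zero] at hab
      exact hab rfl
    refine sw_of_map hF h hL hG hne ha hdA hb hs0 hsw hg ha'0 fun y => ?_
    have := hnm2 (ten a y)
    rw [e1, e1] at this
    exact ⟨_, this⟩
  -- both factors are not trivial: contradiction
  exfalso
  obtain ⟨a', ha'0, ha'Q, ha'f⟩ := exists_fix_sing h.two hαO hαp hα1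
  obtain ⟨b', hb'0, hb'Q, hb'f⟩ := exists_fix_sing h.two hβO hβp hβ1
  obtain ⟨w, a'', ha'⟩ := exists_HB h.two h.nA hdA ha'Q ha'0
  obtain ⟨w', b'', hb'⟩ := exists_HB h.two h.nB hdB hb'Q hb'0
  obtain ⟨s, hs⟩ := unip_eq_T h.two ha' hαO hαp ha'f
  obtain ⟨t, ht⟩ := unip_eq_T h.two hb' hβO hβp hb'f
  have hs0 : s ≠ 0 := by
    rintro rfl
    rw [zero_smul, T_zero_right] at hs
    exact hα1 hs
  have ht0 : t ≠ 0 := by
    rintro rfl
    rw [zero_smul, T_zero_right] at ht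
    exact hβ1 ht
  set y1 : F → (V ≃ₗ[F] V) := fun r => h.tm (T QA a' (r • w)) 1 with hy1
  set y2 : F → (V ≃ₗ[F] V) := fun r => h.tm 1 (T QB b' (r • w')) with hy2
  have hy1L : ∀ r, y1 r ∈ L := fun r => hL.tA h hG _ _
  have hy2L : ∀ r, y2 r ∈ L := fun r => hL.tB h hG _ _
  have hy12 : ∀ r r', y1 r * y2 r' = y2 r' * y1 r := by
    intro r r'
    show h.tm (T QA a' (r • w)) 1 * h.tm 1 (T QB b' (r' • w')) =
      h.tm 1 (T QB b' (r' • w')) * h.tm (T QA a' (r • w)) 1
    rw [← h.tm_mul, ← h.tm_mul, mul_one, one_mul, mul_one, one_mul]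
  have hperpA : ∀ r : F, polar QA a' (r • w) = 0 := fun r => by
    rw [polar_smul_right, ha'.p12, smul_zero]
  have hperpB : ∀ r : F, polar QB b' (r • w') = 0 := fun r => by
    rw [polar_smul_right, hb'.p12, smul_zero]
  have hy1add : ∀ r r', y1 (r + r') = y1 r * y1 r' := by
    intro r r'
    show h.tm (T QA a' ((r + r') • w)) 1 = h.tm (T QA a' (r • w)) 1 * h.tm (T QA a' (r' • w)) 1
    rw [← h.tm_mul, one_mul, T_mul ha'Q (hperpA r) (hperpA r'), add_smul]
  have hy2add : ∀ r r', y2 (r + r') = y2 r * y2 r' := by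
    intro r r'
    show h.tm 1 (T QB b' ((r + r') • w')) = h.tm 1 (T QB b' (r • w')) * h.tm 1 (T QB b' (r' • w'))
    rw [← h.tm_mul, one_mul, T_mul hb'Q (hperpB r) (hperpB r'), add_smul]
  have hy1p : ∀ r, y1 r ^ p = 1 := by
    intro r
    show (h.tm (T QA a' (r • w)) 1) ^ p = 1
    rw [htmpow, one_pow, T_pow_char, h.tm_one]
  have hy2p : ∀ r, y2 r ^ p = 1 := by
    intro r
    show (h.tm 1 (T QB b' (r • w'))) ^ p = 1
    rw [htmpow, one_pow, T_pow_char, h.tm_one]
  have hxy : x = y1 s * y2 t := by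
    refine h.ext_equiv fun a b => ?_
    show x (ten a b) = (h.tm (T QA a' (s • w)) 1 * h.tm 1 (T QB b' (t • w'))) (ten a b)
    rw [hxαβ, ← h.tm_mul, mul_one, one_mul, h.tm_ten, ← hs, ← ht]
  have hy1x : ∀ r, y1 r * x = x * y1 r := by
    intro r
    rw [hxy, ← mul_assoc, ← hy1add, add_comm, hy1add, mul_assoc, hy12, mul_assoc]
  have hy2x : ∀ r, y2 r * x = x * y2 r := by
    intro r
    rw [hxy, ← mul_assoc, ← hy12, mul_assoc, ← hy2add, add_comm, hy2add, mul_assoc]
  -- normal form of `g y g⁻¹` for `y` commuting with `x`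
  have key : ∀ y ∈ L, y ^ p = 1 → y * x = x * y → ∃ (α : A ≃ₗ[F] A) (φ : F), α ^ p = 1 ∧
      ∀ a b, (g * y * g⁻¹) (ten a b) = ten (α a) (T QB b1 (φ • b2) b) := by
    intro y hy hyp hyx
    set z := g * y * g⁻¹ with hz
    have hzL : z ∈ L := L.mul_mem (L.mul_mem hg hy) (L.inv_mem hg)
    have hzp : z ^ p = 1 := by
      rw [hz, conj_pow, hyp]
      group
    have hzd : z * d = d * z := by
      have e : d = g * x * g⁻¹ := by rw [hgx]; group
      rw [hz, e]
      calc g * y * g⁻¹ * (g * x * g⁻¹) = g * (y * x) * g⁻¹ := by group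
        _ = g * (x * y) * g⁻¹ := by rw [hyx]
        _ = g * x * g⁻¹ * (g * y * g⁻¹) := by group
    have hznm : ∀ v, z (nm d v) = nm d (z v) := by
      intro v
      have : z (d v) = d (z v) := by
        rw [← LinearEquiv.mul_apply, hzd, LinearEquiv.mul_apply]
      rw [nm_apply, nm_apply, map_sub, this]
    have hzst : ∀ a, ∃ y, z (ten a b1) = ten y b1 := by
      intro a
      have e1 : ten a b1 = (-(c ^ 2 * (2 * QB b2)))⁻¹ • nm d (nm d (ten a b3)) := by
        rw [hd, h.nmd hb, h.pb_ten, hb.p13, one_smul, map_smul, LinearMap.smul_apply, smul_smul,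
          inv_mul_cancel₀ hne0, one_smul]
      rw [e1, map_smul, hznm, hznm, hd, h.nmd hb]
      exact ⟨(-(c ^ 2 * (2 * QB b2)))⁻¹ • ((-(c ^ 2 * (2 * QB b2))) • h.pb b1 (z (ten a b3))),
        by simp only [map_smul, LinearMap.smul_apply]⟩
    have hzdec : Dec ten z := dec_of_stab hF h hL hG hne ha hdA hb hzL hzst
    obtain ⟨α', β', hα'O, hβ'O, hα'p, hβ'p, hzαβ⟩ := dec_unip h (hL.leO hzL) hzp hzdec
    -- `β' b1 = b1`
    obtain ⟨y', hy'⟩ := hzst a2
    rw [hzαβ] at hy'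
    have hα'a2 : α' a2 ≠ 0 := by
      intro h0
      have := (LinearEquiv.map_eq_zero_iff α').1 h0
      apply ha.q2
      rw [this]
      exact QuadraticMap.map_zero QA
    obtain ⟨v', hv'⟩ := h.nA.exists_polar_eq hα'a2 1
    have e5 : β' b1 = polar QA v' y' • b1 := by
      have e6 := congrArg (h.flip.pb v') hy'
      have e7 : h.flip.pb v' (ten (α' a2) (β' b1)) = polar QA v' (α' a2) • β' b1 :=
        h.flip.pb_ten v' (β' b1) (α' a2)
      have e8 : h.flip.pb v' (ten y' b1) = polar QA v' y' • b1 := h.flip.pb_ten v' b1 y'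
      rw [e7, e8, polar_comm, hv', one_smul] at e6
      exact e6
    have e9 := fix_of_eigen hβ'p hb.hyp.left_ne e5
    obtain ⟨φ, hφ⟩ := unip_eq_T h.two hb hβ'O hβ'p e9
    exact ⟨α', φ, hα'p, fun a b => by rw [hzαβ, hφ]⟩
  choose α1 φ1 hα1p hz1 using fun r => key (y1 r) (hy1L r) (hy1p r) (hy1x r)
  choose α2 φ2 hα2p hz2 using fun r => key (y2 r) (hy2L r) (hy2p r) (hy2x r)
  -- additivity
  have hmul : ∀ {y y' : V ≃ₗ[F] V} {α α' α'' : A ≃ₗ[F] A} {φ φ' φ'' : F},
      (∀ a b, (g * y * g⁻¹) (ten a b) = ten (α a) (T QB b1 (φ • b2) b)) →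
      (∀ a b, (g * y' * g⁻¹) (ten a b) = ten (α' a) (T QB b1 (φ' • b2) b)) →
      (∀ a b, (g * (y * y') * g⁻¹) (ten a b) = ten (α'' a) (T QB b1 (φ'' • b2) b)) →
      α'' = α * α' ∧ φ'' = φ + φ' := by
    intro y y' α α' α'' φ φ' φ'' h1 h2 h3
    have h4 : ∀ a b, ten (α'' a) (T QB b1 (φ'' • b2) b) =
        ten (α (α' a)) (T QB b1 ((φ + φ') • b2) b) := by
      intro a b
      rw [← h3]
      have e : g * (y * y') * g⁻¹ = (g * y * g⁻¹) * (g * y' * g⁻¹) := by group
      rw [e, LinearEquiv.mul_apply, h2, h1, add_smul, ← T_mul hb.hyp.left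
        (by rw [polar_smul_right, hb.p12, smul_zero]) (by rw [polar_smul_right, hb.p12, smul_zero])]
      rfl
    have h5 : ∀ a, α'' a = α (α' a) := by
      intro a
      have := h4 a b1
      rw [T_HB_one hb, T_HB_one hb] at this
      exact h.ten_inj hb.hyp.left_ne this
    refine ⟨by ext a; exact h5 a, ?_⟩
    have h6 := h4 ((α'' : A ≃ₗ[F] A).symm a2) b2
    rw [← h5, LinearEquiv.apply_symm_apply, T_HB_two hb, T_HB_two hb] at h6
    have ha20 : a2 ≠ 0 := by
      intro h0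
      apply ha.q2
      rw [h0]
      exact QuadraticMap.map_zero QA
    have h7 := h.flip.ten_inj ha20 (x := b2 - (φ'' * (2 * QB b2)) • b1)
      (y := b2 - ((φ + φ') * (2 * QB b2)) • b1) h6
    have h8 := sub_right_injective h7
    have h9 := smul_left_injective F hb.hyp.left_ne h8
    exact mul_right_cancel₀ hδ h9
  have hα1add : ∀ r r', α1 (r + r') = α1 r * α1 r' ∧ φ1 (r + r') = φ1 r + φ1 r' := by
    intro r r'
    refine hmul (hz1 r) (hz1 r') ?_
    rw [← hy1add]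
    exact hz1 (r + r')
  have hα2add : ∀ r r', α2 (r + r') = α2 r * α2 r' ∧ φ2 (r + r') = φ2 r + φ2 r' := by
    intro r r'
    refine hmul (hz2 r) (hz2 r') ?_
    rw [← hy2add]
    exact hz2 (r + r')
  -- polynomial form
  have hconj : ∀ {y : V ≃ₗ[F] V} {X X2 : V →ₗ[F] V} {r : F},
      (∀ v, y v = v + r • X v + r ^ 2 • X2 v) → ∀ v, (g * y * g⁻¹) v = v +
        r • (g.toLinearMap ∘ₗ X ∘ₗ (g⁻¹ : V ≃ₗ[F] V).toLinearMap) v +
        r ^ 2 • (g.toLinearMap ∘ₗ X2 ∘ₗ (g⁻¹ : V ≃ₗ[F] V).toLinearMap) v := by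
    intro y X X2 r hy v
    have e : g (g⁻¹ v) = v := LinearEquiv.apply_symm_apply g v
    show g (y (g⁻¹ v)) = _
    rw [hy, map_add, map_add, map_smul, map_smul, e]
    rfl
  obtain ⟨f1, hf1, hf1'⟩ := lin_or hF h hb (z := fun r => g * y1 r * g⁻¹) (α := α1) (φ := φ1)
    (fun r v => hconj (fun v => h.tmA_poly ha' r v) v) hz1 (fun r r' => (hα1add r r').1)
    (fun r r' => (hα1add r r').2) hα1p
  obtain ⟨f2, hf2, hf2'⟩ := lin_or hF h hb (z := fun r => g * y2 r * g⁻¹) (α := α2) (φ := φ2)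
    (fun r v => hconj (fun v => h.tmB_poly hb' r v) v) hz2 (fun r r' => (hα2add r r').1)
    (fun r r' => (hα2add r r').2) hα2p
  -- `d`
  have hdz : ∀ a b, (g * (y1 s * y2 t) * g⁻¹) (ten a b) =
      ten ((1 : A ≃ₗ[F] A) a) (T QB b1 (c • b2) b) := by
    intro a b
    rw [← hxy]
    have : g * x * g⁻¹ = d := by rw [hgx]; group
    rw [this, hd, h.tm_ten]
  obtain ⟨hαeq, hφeq⟩ := hmul (hz1 s) (hz2 t) hdz
  rw [hf1, hf2] at hφeq
  -- an element `g y g⁻¹` with trivial data is trivial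
  have htriv : ∀ {y : V ≃ₗ[F] V} {α : A ≃ₗ[F] A} {φ : F},
      (∀ a b, (g * y * g⁻¹) (ten a b) = ten (α a) (T QB b1 (φ • b2) b)) → α = 1 → φ = 0 →
      y = 1 := by
    intro y α φ h1 hα hφ
    have : g * y * g⁻¹ = 1 := by
      refine h.ext_equiv fun a b => ?_
      rw [h1, hα, hφ, zero_smul, T_zero_right]
      rfl
    have e : y = g⁻¹ * (g * y * g⁻¹) * g := by group
    rw [e, this]
    group
  have hy1ne : ∀ r, y1 r = 1 → r = 0 := by
    intro r hr
    have e : h.tm (T QA a' (r • w)) 1 (ten w b1) = ten w b1 := by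
      have := DFunLike.congr_fun hr (ten w b1)
      exact this
    rw [h.tm_ten] at e
    have e2 := h.ten_inj hb.hyp.left_ne (x := T QA a' (r • w) w) (y := w) e
    rw [T_HB_two ha', sub_eq_self] at e2
    have e3 := (smul_eq_zero.1 e2).resolve_right ha'.hyp.left_ne
    exact (mul_eq_zero.1 e3).resolve_right (mul_ne_zero h.two ha'.q2)
  have hy2ne : ∀ r, y2 r = 1 → r = 0 := by
    intro r hr
    have e : h.tm 1 (T QB b' (r • w')) (ten a' w') = ten a' w' := by
      have := DFunLike.congr_fun hr (ten a' w')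
      exact this
    rw [h.tm_ten] at e
    have e2 := h.flip.ten_inj ha'.hyp.left_ne (x := T QB b' (r • w') w') (y := w') e
    rw [T_HB_two hb', sub_eq_self] at e2
    have e3 := (smul_eq_zero.1 e2).resolve_right hb'.hyp.left_ne
    exact (mul_eq_zero.1 e3).resolve_right (mul_ne_zero h.two hb'.q2)
  by_cases h10 : f1 = 0
  · by_cases h20 : f2 = 0
    · rw [h10, h20, zero_mul, zero_mul, add_zero] at hφeq
      exact hc hφeq
    · have hα2 := hf2' h20 t
      rw [hα2, mul_one] at hαeq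
      have := htriv (hz1 s) hαeq.symm (by rw [hf1, h10, zero_mul])
      exact hs0 (hy1ne s this)
  · by_cases h20 : f2 = 0
    · have hα1' := hf1' h10 s
      rw [hα1', one_mul] at hαeq
      have := htriv (hz2 t) hαeq.symm (by rw [hf2, h20, zero_mul])
      exact ht0 (hy2ne t this)
    · -- both non-zero
      have h3 : y1 f2 * y2 (-f1) = 1 := by
        refine htriv (α := 1) (φ := 0) ?_ rfl rfl
        intro a b
        have e : g * (y1 f2 * y2 (-f1)) * g⁻¹ = (g * y1 f2 * g⁻¹) * (g * y2 (-f1) * g⁻¹) := by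
          group
        rw [e, LinearEquiv.mul_apply, hz2, hz1, hf1' h10, hf2' h20, hf1, hf2]
        have e2 : T QB b1 ((f1 * f2) • b2) (T QB b1 ((f2 * -f1) • b2) b) = b := by
          rw [← LinearEquiv.mul_apply, T_mul hb.hyp.left
            (by rw [polar_smul_right, hb.p12, smul_zero])
            (by rw [polar_smul_right, hb.p12, smul_zero]), ← add_smul]
          have : f1 * f2 + f2 * -f1 = 0 := by ring
          rw [this, zero_smul, T_zero_right]
          rfl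
        rw [e2, zero_smul, T_zero_right]
        rfl
      have h4 : ∀ a b, ten (T QA a' (f2 • w) a) (T QB b' ((-f1) • w') b) = ten a b := by
        intro a b
        have e : (h.tm (T QA a' (f2 • w)) 1 * h.tm 1 (T QB b' ((-f1) • w'))) (ten a b) = ten a b :=
          DFunLike.congr_fun h3 (ten a b)
        rw [← h.tm_mul, mul_one, one_mul, h.tm_ten] at e
        exact e
      have h5 := h4 a' w'
      rw [T_HB_one ha'] at h5
      have e2 := h.flip.ten_inj ha'.hyp.left_ne (x := T QB b' ((-f1) • w') w') (y := w') h5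
      rw [T_HB_two hb', sub_eq_self] at e2
      have e3 := (smul_eq_zero.1 e2).resolve_right hb'.hyp.left_ne
      have e4 := (mul_eq_zero.1 e3).resolve_right (mul_ne_zero h.two hb'.q2)
      exact h10 (neg_eq_zero.1 e4)

end Cfsg.Agent.H922.Ten
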